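import Mathlib
import Cfsg.Prelude.Def_Characters
import Cfsg.Prelude.Def_Blocks

/-!
# S4705 (faithful irreducible character of degree `p - 2`, Sylow `p`-subgroup of order `p`):
definitions and the exact statements of the team-project pieces (helper26)

Paper proof in one paragraph.  `ζ` faithful irreducible, `ζ(1) = p - 2`, `|P| = p`, `P` not normal.
LIB (block library): `C_G(P) = P × Z(G)`, `|N_G(P) : C_G(P)| = 2`, `ζ(x) = -(μ(x) + μ(x)⁻¹)` on `P ∖ 1`.
Twist `ζ` by a power of its determinant to `χ` whose central character has odd order (TW).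
KEY: `Λ²χ = ∑_{ν ≠ 2} ξ_ν`, where `ξ_ν(g) = χ(g ^ k_ν)` (`k_ν ≡ ν mod p`, `k_ν ≡ s` on the `p'`-part;
`s` squares odd `p'`-elements and fixes `2`-elements); hence for `p`-regular `y`:
`χ(y)² - χ(y²) = (p - 3) χ(y ^ s)`  (`E1`).
Consequences: `χ = 0` on non-central odd `p`-regular elements (ODD); `χ(t) = -1` and `y² ∈ Z` for
`2`-elements (TWO); a non-central `2`-element commutes with no non-central odd `p`-regular element
(MIX).  So involution centralisers of `G/Z` have exponent 2, S2202 gives `G/Z ≃ SL₂(F)`, `char F = 2`;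
the norm equation (MOM) gives `p = |F| + 1`; determinant + transfer split the centre (SPLIT).
-/

set_option autoImplicit false

namespace Cfsg.Agent.H26.P2

open Cfsg
open scoped ComplexConjugate

universe u

/-- Standing hypotheses on the twisted character `χ` (`μ` the character of `P` with
`χ = -(μ + μ⁻¹)` on `P ∖ 1`; `s` the exponent squaring odd `p'`-elements, fixing `2`-elements). -/
structure Hyp {G : Type u} [Group G] (p : ℕ) [Fact p.Prime] (P : Sylow p G) (χ : G → ℂ)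
    (μ : ↥(P : Subgroup G) →* ℂˣ) (s : ℕ) : Prop where
  hp5 : 5 < p
  cardP : Nat.card (P : Subgroup G) = p
  irr : IsIrrCharacter G χ
  deg : charDegree χ + 2 = p
  cen : ∀ c ∈ Subgroup.centralizer ((P : Subgroup G) : Set G), ¬ p ∣ orderOf c →
    c ∈ Subgroup.center G
  nor : Nat.card (Subgroup.normalizer ((P : Subgroup G) : Set G)) =
    2 * Nat.card (Subgroup.centralizer ((P : Subgroup G) : Set G))
  zreg : ∀ z ∈ Subgroup.center G, ¬ p ∣ orderOf z
  μne : μ ≠ 1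
  val : ∀ x : ↥(P : Subgroup G), x ≠ 1 →
    χ (x : G) = -(((μ x : ℂˣ) : ℂ) + (((μ x)⁻¹ : ℂˣ) : ℂ))
  scal : ∀ g : G, χ g * conj (χ g) = χ 1 * χ 1 → g ∈ Subgroup.center G
  two : ∀ z ∈ Subgroup.center G, ∀ i : ℕ, z ^ (2 ^ i) = 1 → χ z = χ 1
  sCop : s.Coprime (Nat.card G)
  sOdd : ∀ g : G, Odd (orderOf g) → ¬ p ∣ orderOf g → g ^ s = g ^ 2
  sTwo : ∀ g : G, ∀ i : ℕ, g ^ (2 ^ i) = 1 → g ^ s = g

/-- The key identity on `p`-regular elements. -/
def E1 {G : Type u} [Group G] (p : ℕ) (χ : G → ℂ) (s : ℕ) : Prop :=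
  ∀ y : G, ¬ p ∣ orderOf y → χ y ^ 2 - χ (y * y) = ((p : ℂ) - 3) * χ (y ^ s)

/-- `χ` vanishes on the non-central `p`-regular elements of odd order. -/
def OddC {G : Type u} [Group G] (p : ℕ) (χ : G → ℂ) : Prop :=
  ∀ y : G, Odd (orderOf y) → ¬ p ∣ orderOf y → y ∉ Subgroup.center G → χ y = 0

/-- `χ = -1` on the non-central `2`-elements with central square. -/
def TwoA {G : Type u} [Group G] (χ : G → ℂ) : Prop :=
  ∀ (t : G) (i : ℕ), t ^ (2 ^ i) = 1 → t ∉ Subgroup.center G → t * t ∈ Subgroup.center G →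
    χ t = -1

/-- Every `2`-element has central square. -/
def TwoB (G : Type u) [Group G] : Prop :=
  ∀ (y : G) (i : ℕ), y ^ (2 ^ i) = 1 → y * y ∈ Subgroup.center G

/-- A non-central `2`-element commutes with no non-central `p`-regular element of odd order. -/
def MixC (G : Type u) [Group G] (p : ℕ) : Prop :=
  ∀ (t w : G) (i : ℕ), t ^ (2 ^ i) = 1 → t ∉ Subgroup.center G → Odd (orderOf w) →
    ¬ p ∣ orderOf w → t * w = w * t → w ∈ Subgroup.center G

/-- `|χ| = 1` on the elements that are involutions modulo the centre. -/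
def PwA {G : Type u} [Group G] (χ : G → ℂ) : Prop :=
  ∀ y : G, y ∉ Subgroup.center G → y * y ∈ Subgroup.center G → χ y * conj (χ y) = 1

/-- `χ = 0` on the `p`-regular elements whose square is not central. -/
def PwB {G : Type u} [Group G] (p : ℕ) (χ : G → ℂ) : Prop :=
  ∀ y : G, ¬ p ∣ orderOf y → y * y ∉ Subgroup.center G → χ y = 0

/-- The summation formula over the `p`-singular elements. -/
def SingC {G : Type u} [Group G] (p : ℕ) [Fact p.Prime] (P : Sylow p G) : Prop :=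
  ∀ F : G → ℂ, IsClassFunction G F →
    (2 * (p : ℂ) * (Nat.card (Subgroup.center G) : ℂ)) * ∑ᶠ (g : G) (_ : p ∣ orderOf g), F g =
      (Nat.card G : ℂ) * ∑ᶠ (x : ↥(P : Subgroup G)) (_ : x ≠ 1), ∑ᶠ z : Subgroup.center G,
        F ((x : G) * (z : G))

/-- The norm equation. -/
def MomC (G : Type u) [Group G] (p : ℕ) : Prop :=
  2 * Nat.card G = p * Nat.card (Subgroup.center G) *
    ((p - 2) ^ 2 + Nat.card {t : G ⧸ Subgroup.center G // orderOf t = 2})

/-- Centralisers of involutions of `G / Z(G)` have exponent 2 (stated in `G`). -/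
def QExp (G : Type u) [Group G] : Prop :=
  ∀ t g : G, t ∉ Subgroup.center G → t * t ∈ Subgroup.center G →
    g * t * g⁻¹ * t⁻¹ ∈ Subgroup.center G → g * g ∈ Subgroup.center G

/-- `G / Z(G)` has trivial centre (stated in `G`). -/
def QCentC (G : Type u) [Group G] : Prop :=
  ∀ g : G, (∀ h : G, g * h * g⁻¹ * h⁻¹ ∈ Subgroup.center G) → g ∈ Subgroup.center G

/-! ## Part 0: building `Hyp` -/

/-- **P2-LIB** (on helper82's library `Cfsg.Agent.H82.P1A … P3H`, cf. `H82.BrLibA…D`). -/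
def StLib : Prop :=
  ∀ {G : Type u} [Group G] [Finite G] (p : ℕ) [Fact p.Prime] (P : Sylow p G),
    5 < p → Nat.card (P : Subgroup G) = p → ¬ (P : Subgroup G).Normal →
    ∀ ζ : G → ℂ, IsIrrCharacter G ζ → (∀ g : G, ζ g = ζ 1 → g = 1) → charDegree ζ + 2 = p →
      (∀ c ∈ Subgroup.centralizer ((P : Subgroup G) : Set G), ¬ p ∣ orderOf c →
        c ∈ Subgroup.center G) ∧
      Nat.card (Subgroup.normalizer ((P : Subgroup G) : Set G)) =
        2 * Nat.card (Subgroup.centralizer ((P : Subgroup G) : Set G)) ∧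
      ∃ μ : ↥(P : Subgroup G) →* ℂˣ, μ ≠ 1 ∧ ∀ x : ↥(P : Subgroup G), x ≠ 1 →
        ζ (x : G) = -(((μ x : ℂˣ) : ℂ) + (((μ x)⁻¹ : ℂˣ) : ℂ))

/-- **P2-TW**: a power `β` of the determinant of `ζ`, trivial on elements of order dividing `p`,
with `ζ β` trivial on the central `2`-elements. -/
def StTw : Prop :=
  ∀ {G : Type u} [Group G] [Finite G] (ζ : G → ℂ), IsIrrCharacter G ζ →
    ∀ p : ℕ, Odd p → Odd (charDegree ζ) →
      ∃ β : G →* ℂˣ, (∀ x : G, x ^ p = 1 → β x = 1) ∧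
        ∀ z ∈ Subgroup.center G, ∀ i : ℕ, z ^ (2 ^ i) = 1 → ζ z * ((β z : ℂˣ) : ℂ) = ζ 1

/-- **P2-SCAL**: for a faithful irreducible character, `|χ(g)| = χ(1)` forces `g` central. -/
def StScal : Prop :=
  ∀ {G : Type u} [Group G] [Finite G] (χ : G → ℂ), IsIrrCharacter G χ →
    (∀ g : G, χ g = χ 1 → g = 1) →
    ∀ g : G, χ g * conj (χ g) = χ 1 * χ 1 → g ∈ Subgroup.center G

/-- **P2-ZREG**: the centre is a `p'`-group. -/
def StZReg : Prop :=
  ∀ {G : Type u} [Group G] [Finite G] (p : ℕ) [Fact p.Prime] (P : Sylow p G),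
    Nat.card (P : Subgroup G) = p → ¬ (P : Subgroup G).Normal →
    ∀ z ∈ Subgroup.center G, ¬ p ∣ orderOf z

/-- **P2-EXS**: the exponent `s` (Chinese remainder theorem). -/
def StExS : Prop :=
  ∀ {G : Type u} [Group G] [Finite G] (p : ℕ) [Fact p.Prime], p ≠ 2 →
    ∃ s : ℕ, s.Coprime (Nat.card G) ∧
      (∀ g : G, Odd (orderOf g) → ¬ p ∣ orderOf g → g ^ s = g ^ 2) ∧
      (∀ g : G, ∀ i : ℕ, g ^ (2 ^ i) = 1 → g ^ s = g)

/-! ## Part 1: the key identity -/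

/-- **P2-SING**: the `p`-singular elements are the conjugates of `x z`, `x ∈ P ∖ 1`, `z ∈ Z(G)`,
each class meeting `(P ∖ 1) Z` in `2` points. -/
def StSing : Prop :=
  ∀ {G : Type u} [Group G] [Finite G] (p : ℕ) [Fact p.Prime] (P : Sylow p G),
    Nat.card (P : Subgroup G) = p →
    (∀ c ∈ Subgroup.centralizer ((P : Subgroup G) : Set G), ¬ p ∣ orderOf c →
      c ∈ Subgroup.center G) →
    Nat.card (Subgroup.normalizer ((P : Subgroup G) : Set G)) =
      2 * Nat.card (Subgroup.centralizer ((P : Subgroup G) : Set G)) →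
    (∀ z ∈ Subgroup.center G, ¬ p ∣ orderOf z) → SingC p P

/-- **P2-XI**: the Galois conjugates `ξ_ν` (`Cfsg.Agent.H79.irrPow` with a CRT exponent). -/
def StXi : Prop :=
  ∀ {G : Type u} [Group G] [Finite G] (p : ℕ) [Fact p.Prime] (P : Sylow p G) (χ : G → ℂ)
    (μ : ↥(P : Subgroup G) →* ℂˣ) (s : ℕ), Hyp p P χ μ s →
    ∃ ξ : ℕ → IrrCharacter G, ∀ ν : ℕ, ¬ p ∣ ν →
      (∀ y : G, ¬ p ∣ orderOf y → (ξ ν).1 y = χ (y ^ s)) ∧
      (∀ x : ↥(P : Subgroup G), ∀ z ∈ Subgroup.center G,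
        (ξ ν).1 ((x : G) * z) = χ ((x : G) ^ ν * z ^ s))

/-- **P2-INJ**: the values `χ(x^ν)`, `1 ≤ ν ≤ (p-1)/2`, separate the `ν`. -/
def StInj : Prop :=
  ∀ {G : Type u} [Group G] [Finite G] (p : ℕ) [Fact p.Prime] (P : Sylow p G) (χ : G → ℂ)
    (μ : ↥(P : Subgroup G) →* ℂˣ) (s : ℕ), Hyp p P χ μ s →
    ∀ ν ν' : ℕ, 1 ≤ ν → ν < ν' → 2 * ν' + 1 ≤ p →
      ∃ x : ↥(P : Subgroup G), χ ((x : G) ^ ν) ≠ χ ((x : G) ^ ν')

/-- **P2-SUM**: the singular sum of `Λ²χ · conj ξ_ν`. -/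
def StSum : Prop :=
  ∀ {G : Type u} [Group G] [Finite G] (p : ℕ) [Fact p.Prime] (P : Sylow p G) (χ : G → ℂ)
    (μ : ↥(P : Subgroup G) →* ℂˣ) (s : ℕ), Hyp p P χ μ s →
    ∀ ν : ℕ, 1 ≤ ν → 2 * ν + 1 ≤ p →
      ∑ᶠ (x : ↥(P : Subgroup G)) (_ : x ≠ 1), ∑ᶠ z : Subgroup.center G,
        ((χ ((x : G) * (z : G)) ^ 2 - χ (((x : G) * (z : G)) * ((x : G) * (z : G)))) / 2) *
          conj (χ ((x : G) ^ ν * (z : G) ^ s)) =
      (Nat.card (Subgroup.center G) : ℂ) * (if ν = 2 then -(2 * (p : ℂ) - 6) else 6)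

/-- **P2-DECOMP** (generic): a character of degree `(n-1) d` whose multiplicities at `n` distinct
irreducible characters of degree `d` are `m, m-1, m, …, m` is the sum of all but the second. -/
def StDecomp : Prop :=
  ∀ {G : Type u} [Group G] [Fintype G] (Ψ : G → ℂ), IsCharacter G Ψ →
    ∀ (n : ℕ) (ξ : ℕ → IrrCharacter G) (d : ℕ), 3 ≤ n → 0 < d →
      (∀ i j : ℕ, i < n → j < n → ξ i = ξ j → i = j) →
      (∀ i : ℕ, i < n → charDegree (ξ i).1 = d) →
      Ψ 1 = (((n - 1) * d : ℕ) : ℂ) →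
      (∀ i : ℕ, i < n → i ≠ 1 → classInner Ψ (ξ i).1 = classInner Ψ (ξ 0).1) →
      classInner Ψ (ξ 1).1 + 1 = classInner Ψ (ξ 0).1 →
      Ψ = fun g => ∑ i ∈ (Finset.range n).erase 1, (ξ i).1 g

/-- **P2-KEY** (assembly of Part 1; `Λ²χ` is a character by `Cfsg.Agent.H99.AltSq.altSq_isCharacter`). -/
def StKey : Prop :=
  ∀ {G : Type u} [Group G] [Finite G] (p : ℕ) [Fact p.Prime] (P : Sylow p G) (χ : G → ℂ)
    (μ : ↥(P : Subgroup G) →* ℂˣ) (s : ℕ), Hyp p P χ μ s → E1 p χ s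

/-! ## Part 2: consequences of the key identity -/

/-- **P2-ODD** -/
def StOdd : Prop :=
  ∀ {G : Type u} [Group G] [Finite G] (p : ℕ) [Fact p.Prime] (P : Sylow p G) (χ : G → ℂ)
    (μ : ↥(P : Subgroup G) →* ℂˣ) (s : ℕ), Hyp p P χ μ s → E1 p χ s → OddC p χ

/-- **P2-TWO** -/
def StTwo : Prop :=
  ∀ {G : Type u} [Group G] [Finite G] (p : ℕ) [Fact p.Prime] (P : Sylow p G) (χ : G → ℂ)
    (μ : ↥(P : Subgroup G) →* ℂˣ) (s : ℕ), Hyp p P χ μ s → E1 p χ s → TwoA χ ∧ TwoB G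

/-- **P2-MIX** -/
def StMix : Prop :=
  ∀ {G : Type u} [Group G] [Finite G] (p : ℕ) [Fact p.Prime] (P : Sylow p G) (χ : G → ℂ)
    (μ : ↥(P : Subgroup G) →* ℂˣ) (s : ℕ), Hyp p P χ μ s → E1 p χ s → OddC p χ → TwoA χ →
      TwoB G → MixC G p

/-- **P2-PW** -/
def StPW : Prop :=
  ∀ {G : Type u} [Group G] [Finite G] (p : ℕ) [Fact p.Prime] (P : Sylow p G) (χ : G → ℂ)
    (μ : ↥(P : Subgroup G) →* ℂˣ) (s : ℕ), Hyp p P χ μ s → OddC p χ → TwoA χ → TwoB G →
      MixC G p → PwA χ ∧ PwB p χ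

/-- **P2-MOM** -/
def StMom : Prop :=
  ∀ {G : Type u} [Group G] [Finite G] (p : ℕ) [Fact p.Prime] (P : Sylow p G) (χ : G → ℂ)
    (μ : ↥(P : Subgroup G) →* ℂˣ) (s : ℕ), Hyp p P χ μ s → SingC p P → PwA χ → PwB p χ →
      MomC G p

/-! ## Part 3: the quotient `G / Z(G)` -/

/-- **P2-QCENT** -/
def StQCent : Prop :=
  ∀ {G : Type u} [Group G] [Finite G] (p : ℕ) [Fact p.Prime] (P : Sylow p G) (χ : G → ℂ)
    (μ : ↥(P : Subgroup G) →* ℂˣ) (s : ℕ), Hyp p P χ μ s → QCentC G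

/-- **P2-QEXP** -/
def StQExp : Prop :=
  ∀ {G : Type u} [Group G] [Finite G] (p : ℕ) [Fact p.Prime] (P : Sylow p G) (χ : G → ℂ)
    (μ : ↥(P : Subgroup G) →* ℂˣ) (s : ℕ), Hyp p P χ μ s → TwoB G → MixC G p → QExp G

/-- **P2-QAB** (generic): exponent 2 gives commutative involution centralisers in `G / Z(G)`. -/
def StQAb : Prop :=
  ∀ {G : Type u} [Group G] [Finite G], QExp G →
    ∀ t : G ⧸ Subgroup.center G, orderOf t = 2 →
      IsMulCommutative ↥(Subgroup.centralizer ({t} : Set (G ⧸ Subgroup.center G)))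

/-- **P2-QEVEN** -/
def StQEven : Prop :=
  ∀ {G : Type u} [Group G] [Finite G] (p : ℕ) [Fact p.Prime] (P : Sylow p G) (χ : G → ℂ)
    (μ : ↥(P : Subgroup G) →* ℂˣ) (s : ℕ), Hyp p P χ μ s →
      Even (Nat.card (G ⧸ Subgroup.center G))

/-- **P2-QNC**: the Sylow `2`-subgroups of `G / Z(G)` are not cyclic. -/
def StQNC : Prop :=
  ∀ {G : Type u} [Group G] [Finite G] (p : ℕ) [Fact p.Prime] (P : Sylow p G) (χ : G → ℂ)
    (μ : ↥(P : Subgroup G) →* ℂˣ) (s : ℕ), Hyp p P χ μ s → TwoB G → QExp G → MomC G p →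
      ¬ ∀ T : Sylow 2 (G ⧸ Subgroup.center G), IsCyclic ↥T

/-- **P2-QNN**: the Sylow `2`-subgroups of `G / Z(G)` are not normal. -/
def StQNN : Prop :=
  ∀ {G : Type u} [Group G] [Finite G] (p : ℕ) [Fact p.Prime] (P : Sylow p G) (χ : G → ℂ)
    (μ : ↥(P : Subgroup G) →* ℂˣ) (s : ℕ), Hyp p P χ μ s →
      ¬ ∀ T : Sylow 2 (G ⧸ Subgroup.center G), (T : Subgroup (G ⧸ Subgroup.center G)).Normal

/-- **P2-QPROD** (generic): a centreless group isomorphic to `SL₂(F) × A`, `A` commutative. -/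
def StQProd : Prop :=
  ∀ (H : Type u) [Group H] (F : Type) [Field F] [Fintype F] (A : Type) [CommGroup A],
    (∀ h ∈ Subgroup.center H, h = 1) → (H ≃* Matrix.SpecialLinearGroup (Fin 2) F × A) →
      Nonempty (H ≃* Matrix.SpecialLinearGroup (Fin 2) F)

/-- **P2-SLINV**: `SL₂(F)`, `char F = 2`, has `q² - 1` involutions. -/
def StSLInv : Prop :=
  ∀ (F : Type) [Field F] [Fintype F], CharP F 2 →
    Nat.card {g : Matrix.SpecialLinearGroup (Fin 2) F // orderOf g = 2} = Fintype.card F ^ 2 - 1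

/-- **P2-PQ**: `p = q + 1`. -/
def StPQ : Prop :=
  ∀ {G : Type u} [Group G] [Finite G] (p : ℕ) [Fact p.Prime], 5 < p → MomC G p →
    ∀ (F : Type) [Field F] [Fintype F], CharP F 2 →
      (G ⧸ Subgroup.center G ≃* Matrix.SpecialLinearGroup (Fin 2) F) → p = Fintype.card F + 1

/-! ## Part 4: splitting off the centre -/

/-- **P2-DET**: the determinant kills `Z(G) ∩ G'`. -/
def StDet : Prop :=
  ∀ {G : Type u} [Group G] [Finite G] (ζ : G → ℂ), IsIrrCharacter G ζ →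
    (∀ g : G, ζ g = ζ 1 → g = 1) →
    ∀ z ∈ Subgroup.center G, z ∈ commutator G → z ^ charDegree ζ = 1

/-- **P2-TRF**: transfer into an abelian Sylow subgroup. -/
def StTrf : Prop :=
  ∀ {G : Type u} [Group G] [Finite G] (r : ℕ) [Fact r.Prime] (R : Sylow r G),
    (∀ a ∈ (R : Subgroup G), ∀ b ∈ (R : Subgroup G), a * b = b * a) →
    ∀ z ∈ Subgroup.center G, z ∈ commutator G → z ^ r = 1 → z = 1

/-- **P2-SYLR**: abelian Sylow `r`-subgroups for odd `r ∣ q - 1` (preimage of the diagonal torus). -/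
def StSylR : Prop :=
  ∀ {G : Type u} [Group G] [Finite G] (F : Type) [Field F] [Fintype F],
    (G ⧸ Subgroup.center G ≃* Matrix.SpecialLinearGroup (Fin 2) F) →
    ∀ (r : ℕ) [Fact r.Prime], r ≠ 2 → r ∣ Fintype.card F - 1 →
      ∀ R : Sylow r G, ∀ a ∈ (R : Subgroup G), ∀ b ∈ (R : Subgroup G), a * b = b * a

/-- **P2-SPLIT** (assembly of Part 4). -/
def StSplit : Prop :=
  ∀ {G : Type u} [Group G] [Finite G] (ζ : G → ℂ), IsIrrCharacter G ζ →
    (∀ g : G, ζ g = ζ 1 → g = 1) →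
    ∀ (F : Type) [Field F] [Fintype F], CharP F 2 →
      (G ⧸ Subgroup.center G ≃* Matrix.SpecialLinearGroup (Fin 2) F) →
      charDegree ζ + 1 = Fintype.card F → 4 ≤ Fintype.card F →
      Nonempty (G ≃* Matrix.SpecialLinearGroup (Fin 2) F × ↥(Subgroup.center G))

end Cfsg.Agent.H26.P2
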