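import Mathlib
import Cfsg.Prelude.Def_JComponents
import Cfsg.Agent.Helper55.ThJ

/-! For the JZ project (S2951 / S2952), pure `2`-group facts on `Ω₁(Z(J(·)))`:
an element of order at most two centralizing a member `A` of `𝒜(S)` lies in `A`; hence
`Ω₁(Z(J(S))) ≤ A` for every `A ∈ 𝒜(S)`, and if `T ≤ S` have the same largest elementary abelian
order then `Ω₁(Z(J(S))) ≤ Ω₁(Z(J(T)))`. -/

set_option autoImplicit false
open Cfsg

namespace Cfsg.Agent.H26.Jz

universe u

variable {G : Type u} [Group G] [Finite G]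

open Cfsg.Agent.Helper55.ThJ

theorem zpowers_elemAb26 {x : G} (hx2 : x ^ 2 = 1) :
    IsElementaryAbelian 2 (Subgroup.zpowers x) := by
  refine ⟨inferInstance, ?_⟩
  intro y hy
  obtain ⟨k, rfl⟩ := Subgroup.mem_zpowers_iff.mp hy
  rw [← zpow_natCast, ← zpow_mul, mul_comm, zpow_mul, zpow_natCast, hx2, one_zpow]

/-- an element `x` of `S` with `x ^ 2 = 1` that commutes with a largest elementary abelian subgroup
`A` of `S` lies in `A` -/
theorem mem_gen_of_commute {S A : Subgroup G} (hA : A ∈ gens S) {x : G} (hxS : x ∈ S)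
    (hxC : ∀ a ∈ A, a * x = x * a) (hx2 : x ^ 2 = 1) : x ∈ A := by
  have hcen : Subgroup.zpowers x ≤ Subgroup.centralizer (A : Set G) := by
    rw [Subgroup.zpowers_le]
    exact Subgroup.mem_centralizer_iff.mpr hxC
  have hB : IsElementaryAbelian 2 (A ⊔ Subgroup.zpowers x) :=
    Cfsg.Agent.H14.elemAb_sup hA.2.1 (zpowers_elemAb26 hx2) hcen
  have hBS : A ⊔ Subgroup.zpowers x ≤ S := sup_le hA.1 ((Subgroup.zpowers_le).mpr hxS)
  have hcard : Nat.card ↥(A ⊔ Subgroup.zpowers x) ≤ Nat.card ↥A := by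
    rw [hA.2.2]
    exact card_le_a S hBS hB
  have heq : A = A ⊔ Subgroup.zpowers x :=
    Subgroup.eq_of_le_of_card_ge le_sup_left hcard
  rw [heq]
  exact (le_sup_right : Subgroup.zpowers x ≤ A ⊔ Subgroup.zpowers x) (Subgroup.mem_zpowers x)

/-- `Ω₁(Z(J(S)))` lies in every largest elementary abelian subgroup of `S` -/
theorem omegaCenter_J_le_gen {S A : Subgroup G} (hA : A ∈ gens S) :
    omegaCenterOf (thompsonSubgroupOf 2 S) ≤ A := by
  unfold omegaCenterOf omegaOne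
  rw [Subgroup.closure_le]
  rintro x ⟨hx, hx2⟩
  obtain ⟨hxJ, hxC⟩ := Subgroup.mem_inf.mp hx
  exact mem_gen_of_commute hA (J_le S hxJ)
    (fun a ha => Subgroup.mem_centralizer_iff.mp hxC a (gen_le_J hA ha)) hx2

/-- if `T ≤ S` and the largest elementary abelian subgroups of `T` and `S` have the same order,
then `Ω₁(Z(J(S))) ≤ Ω₁(Z(J(T)))` -/
theorem omegaCenter_J_le_of_a_eq {T S : Subgroup G} (hTS : T ≤ S)
    (ha : maxElemAbelianOrder T = maxElemAbelianOrder S) :
    omegaCenterOf (thompsonSubgroupOf 2 S) ≤ omegaCenterOf (thompsonSubgroupOf 2 T) := by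
  have hJ : thompsonSubgroupOf 2 T ≤ thompsonSubgroupOf 2 S :=
    J_le_J_of ((J_le T).trans hTS) ha.ge
  obtain ⟨A, hA⟩ := gens_nonempty T
  have hAS : A ∈ gens S := ⟨hA.1.trans hTS, hA.2.1, hA.2.2.trans ha⟩
  unfold omegaCenterOf omegaOne
  apply Subgroup.closure_mono
  rintro x ⟨hx, hx2⟩
  obtain ⟨hxJ, hxC⟩ := Subgroup.mem_inf.mp hx
  have hxA : x ∈ A :=
    mem_gen_of_commute hAS (J_le S hxJ)
      (fun a ha => Subgroup.mem_centralizer_iff.mp hxC a (gen_le_J hAS ha)) hx2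
  refine ⟨Subgroup.mem_inf.mpr ⟨gen_le_J hA hxA, ?_⟩, hx2⟩
  exact Subgroup.centralizer_le (by exact_mod_cast hJ) hxC

/-- the members of `Ω₁(Z(J(S)))` commute with `J(S)` and lie in it -/
theorem omegaCenter_J_le_J (S : Subgroup G) :
    omegaCenterOf (thompsonSubgroupOf 2 S) ≤ thompsonSubgroupOf 2 S := by
  obtain ⟨A, hA⟩ := gens_nonempty S
  exact (omegaCenter_J_le_gen hA).trans (gen_le_J hA)

end Cfsg.Agent.H26.Jz
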