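import Cfsg.Agent.H21.SmallTable

/-!
# Census for the orders `19 * m`, `m ∣ 9240` (helper26, for S4274)

Every `19 * m` with `m ∣ 9240`, `m ≠ 9240`, outside an explicit list of 12 orders, is excluded
as the order of a non-cyclic simple group by the Sylow or the Burnside arithmetic test of
`H11.SmallSimple`.
-/

set_option autoImplicit false

namespace Cfsg.Agent.H26.Census19

open Cfsg.Agent.H11 Cfsg.Agent.H21.Small

/-- Boolean version of `BurnsideKills` that never computes a factorial of a number `≥ 19`
(such a candidate is simply treated as admissible). -/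
def burnB2 (n p : ℕ) : Bool :=
  primeB p && decide (p ∣ n) && !decide (p * p ∣ n) &&
    (List.range (n / p + 1)).all (fun k =>
      !(decide (1 + p * k ∣ n) && !decide (k = 0) &&
          (decide (19 ≤ 1 + p * k) || decide (n ∣ (1 + p * k).factorial))) ||
        decide (Nat.gcd (n / ((1 + p * k) * p)) (p - 1) = 1))

theorem burnB2_sound {n p : ℕ} (h : burnB2 n p = true) : BurnsideKills n p := by
  unfold burnB2 at h
  rw [Bool.and_eq_true, Bool.and_eq_true, Bool.and_eq_true, decide_eq_true_eq,
    Bool.not_eq_true', decide_eq_false_iff_not, List.all_eq_true] at h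
  obtain ⟨⟨⟨hp, hpn⟩, hpp⟩, hall⟩ := h
  have hp2 := (primeB_sound hp).1
  refine ⟨primeB_sound hp, hpn, hpp, fun d hd hdn hmod hd1 hfac => ?_⟩
  have hdk : d = 1 + p * (d / p) := by
    have := Nat.div_add_mod d p
    omega
  have hk : d / p ≤ n / p := Nat.div_le_div_right hd
  have := hall (d / p) (List.mem_range.mpr (by omega))
  rw [← hdk, Bool.or_eq_true, Bool.not_eq_true', Bool.and_eq_false_iff, Bool.and_eq_false_iff,
    decide_eq_false_iff_not, Bool.not_eq_false', decide_eq_true_eq, Bool.or_eq_false_iff,
    decide_eq_false_iff_not, decide_eq_false_iff_not, decide_eq_true_eq] at this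
  rcases this with ((h' | h') | h') | h'
  · exact absurd hdn h'
  · rw [h'] at hdk; omega
  · exact absurd hfac h'.2
  · exact h'

/-- The orders not handled by the table. -/
def special : List ℕ :=
  [760, 2280, 5320, 5852, 7980, 11704, 15960, 17556, 29260, 35112, 58520, 87780]

/-- The table: an order with its witness prime. -/
def witness : List (ℕ × ℕ) :=
  [(19, 19), (38, 19), (57, 19), (76, 19), (95, 5), (114, 19), (133, 7), (152, 19), (190, 5),
   (209, 11), (228, 19), (266, 7), (285, 5), (380, 5), (399, 19), (418, 11), (456, 19),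
   (532, 7), (570, 5), (627, 11), (665, 5), (798, 19), (836, 11), (1045, 5), (1064, 7),
   (1140, 5), (1254, 11), (1330, 19), (1463, 7), (1596, 19), (1672, 11), (1995, 19),
   (2090, 5), (2508, 11), (2660, 19), (2926, 2), (3135, 5), (3192, 19), (3990, 2), (4180, 11),
   (4389, 3), (5016, 11), (6270, 11), (7315, 5), (8360, 11), (8778, 2), (12540, 11),
   (14630, 2), (21945, 3), (25080, 11), (43890, 2)]

/-- One row of the table. -/
def rowB (x : ℕ × ℕ) : Bool :=
  sylowB x.1 x.2 || burnB2 x.1 x.2

/-- The test run on an order. -/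
def good (n : ℕ) : Bool :=
  special.contains n || witness.any (fun x => x.1 == n && rowB x)

theorem good_sound {n : ℕ} (h : good n = true) :
    (∃ p, SylowKills n p) ∨ (∃ p, BurnsideKills n p) ∨ n ∈ special := by
  unfold good at h
  rw [Bool.or_eq_true] at h
  rcases h with h | h
  · exact Or.inr (Or.inr (by simpa using h))
  · rw [List.any_eq_true] at h
    obtain ⟨x, -, hx⟩ := h
    rw [Bool.and_eq_true, beq_iff_eq] at hx
    obtain ⟨hx1, hx2⟩ := hx
    unfold rowB at hx2
    rw [Bool.or_eq_true] at hx2
    rcases hx2 with h' | h'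
    · exact Or.inl ⟨x.2, hx1 ▸ sylowB_sound h'⟩
    · exact Or.inr (Or.inl ⟨x.2, hx1 ▸ burnB2_sound h'⟩)

theorem census_all :
    (List.range 9241).all
      (fun m => !decide (m ∣ 9240) || decide (m = 9240) || good (19 * m)) = true := by
  decide +kernel

/-- The census: an order `19 * m`, `m ∣ 9240`, `m ≠ 9240`, is killed by the Sylow test, by the
Burnside test, or lies in the special list. -/
theorem census (m : ℕ) (hm : m ∣ 9240) (hm' : m ≠ 9240) :
    (∃ p, SylowKills (19 * m) p) ∨ (∃ p, BurnsideKills (19 * m) p) ∨ 19 * m ∈ special := by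
  have hle : m ≤ 9240 := Nat.le_of_dvd (by norm_num) hm
  have h := List.all_eq_true.mp census_all m (List.mem_range.mpr (by omega))
  rw [Bool.or_eq_true, Bool.or_eq_true, Bool.not_eq_true', decide_eq_false_iff_not,
    decide_eq_true_eq] at h
  rcases h with (h | h) | h
  · exact absurd hm h
  · exact absurd h hm'
  · exact good_sound h

end Cfsg.Agent.H26.Census19
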