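import Mathlib
import Cfsg.Agent.H58.FzDefs

set_option autoImplicit false
set_option maxHeartbeats 800000

/-!
Three tool statements for the fixed-point-free action of a nonabelian group of order `pq`:
`IND` (invariant subgroups without fixed points generate a subgroup without fixed points),
`CYC` (commutators act trivially on a section of prime order) and the structure of a nonabelian
group of order `pq`.
-/

namespace Cfsg.Agent.H26.Fz

universe u

open scoped IsMulCommutative in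
theorem ind_holds {X : Type u} [Group X] [Finite X] : Cfsg.Agent.H58.Fz.IND X := by
  intro U K 𝒮 hU hKU hcop h𝒮
  classical
  have : Fintype ↥K := Fintype.ofFinite _
  have hUc : IsMulCommutative ↥U := ⟨⟨fun a b => Subtype.ext (hU a a.2 b b.2)⟩⟩
  have hconjU : ∀ k ∈ K, ∀ u ∈ U, k * u * k⁻¹ ∈ U := fun k hk u hu =>
    (Subgroup.mem_normalizer_iff.1 (hKU hk) u).1 hu
  let c : ↥K → (↥U →* ↥U) := fun k =>
    { toFun := fun u => ⟨k * u * k⁻¹, hconjU k k.2 u u.2⟩
      map_one' := Subtype.ext (by simp)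
      map_mul' := fun a b => Subtype.ext (by simp) }
  have hc : ∀ (k : ↥K) (u : ↥U), ((c k u : ↥U) : X) = k * u * (k : X)⁻¹ := fun k u => rfl
  let π : ↥U →* ↥U := ∏ k : ↥K, c k
  have hπ : ∀ u : ↥U, π u = ∏ k : ↥K, c k u := fun u => MonoidHom.finsetProd_apply _ _ _
  have hπfix : ∀ (u : ↥U) (k' : ↥K), (k' : X) * (π u : X) * (k' : X)⁻¹ = (π u : X) := by
    intro u k'
    have h1 : c k' (π u) = π u := by
      rw [hπ, map_prod]
      refine Fintype.prod_equiv (Equiv.mulLeft k') _ _ (fun k => ?_)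
      apply Subtype.ext
      rw [hc, hc, hc]
      simp [mul_assoc]
    have h2 := congrArg Subtype.val h1
    rwa [hc] at h2
  have hπL : ∀ L ∈ 𝒮, ∀ u : ↥U, (u : X) ∈ L → π u = 1 := by
    intro L hL u hu
    obtain ⟨hLU, hKL, hLK⟩ := h𝒮 L hL
    have hmem : (π u : X) ∈ L := by
      rw [hπ]
      refine Finset.prod_induction _ (fun v : ↥U => (v : X) ∈ L) (fun a b ha hb => L.mul_mem ha hb)
        L.one_mem (fun k _ => ?_)
      show ((c k u : ↥U) : X) ∈ L
      rw [hc]
      exact (Subgroup.mem_normalizer_iff.1 (hKL k.2) u).1 hu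
    have hcen : (π u : X) ∈ Subgroup.centralizer (K : Set X) := by
      rw [Subgroup.mem_centralizer_iff]
      intro k hk
      have := hπfix u ⟨k, hk⟩
      exact mul_inv_eq_iff_eq_mul.1 this
    have h3 : (π u : X) ∈ L ⊓ Subgroup.centralizer (K : Set X) := ⟨hmem, hcen⟩
    rw [hLK, Subgroup.mem_bot] at h3
    exact Subtype.ext h3
  have hsup : (⨆ L ∈ 𝒮, L) ≤ (π.ker).map U.subtype := by
    refine iSup₂_le (fun L hL => ?_)
    intro l hl
    have hlU : l ∈ U := (h𝒮 L hL).1 hl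
    exact ⟨⟨l, hlU⟩, MonoidHom.mem_ker.2 (hπL L hL ⟨l, hlU⟩ hl), rfl⟩
  rw [eq_bot_iff]
  intro w hw
  obtain ⟨⟨hwU, hwC⟩, hwS⟩ := hw
  obtain ⟨u, hu, huw⟩ := hsup hwS
  have hu1 : π u = 1 := MonoidHom.mem_ker.1 hu
  have huw' : (u : X) = w := huw
  have hfix : ∀ k : ↥K, c k u = u := by
    intro k
    apply Subtype.ext
    rw [hc, huw']
    have := (Subgroup.mem_centralizer_iff.1 hwC) k k.2
    rw [this, mul_inv_cancel_right]
  have hpow : u ^ Fintype.card ↥K = 1 := by
    rw [← hu1, hπ, Finset.prod_congr rfl (fun k _ => hfix k), Finset.prod_const, Finset.card_univ]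
  have hpow2 : u ^ Nat.card ↥U = 1 := pow_card_eq_one'
  have ho : orderOf u ∣ Nat.gcd (Nat.card ↥K) (Nat.card ↥U) := by
    refine Nat.dvd_gcd ?_ (orderOf_dvd_of_pow_eq_one hpow2)
    rw [Nat.card_eq_fintype_card]
    exact orderOf_dvd_of_pow_eq_one hpow
  rw [Nat.Coprime.gcd_eq_one hcop, Nat.dvd_one, orderOf_eq_one_iff] at ho
  rw [Subgroup.mem_bot, ← huw', ho]
  rfl

theorem cyc_holds {X : Type u} [Group X] [Finite X] : Cfsg.Agent.H58.Fz.CYC X := by
  intro E K r g h hr hKE hcard hEK hgE hgK hhE hhK e he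
  classical
  have hnorm : (K.subgroupOf E).Normal := (Subgroup.normal_subgroupOf_iff_le_normalizer hKE).2 hEK
  have hQcard : Nat.card (↥E ⧸ K.subgroupOf E) = r := by
    have h1 := Subgroup.card_eq_card_quotient_mul_card_subgroup (K.subgroupOf E)
    have h2 : Nat.card (K.subgroupOf E) = Nat.card K :=
      Nat.card_congr (Subgroup.subgroupOfEquivOfLe hKE).toEquiv
    rw [h2, hcard] at h1
    exact (Nat.eq_of_mul_eq_mul_right Nat.card_pos h1).symm
  have hrF : Fact r.Prime := ⟨hr⟩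
  have hcyc : IsCyclic (↥E ⧸ K.subgroupOf E) := isCyclic_of_prime_card hQcard
  have hEc : ∀ t : X, t ∈ Subgroup.normalizer (E : Set X) → ∀ a ∈ E, t * a * t⁻¹ ∈ E :=
    fun t ht a ha => (Subgroup.mem_normalizer_iff.1 ht a).1 ha
  have conj : ∀ t : X, t ∈ Subgroup.normalizer (E : Set X) →
      t ∈ Subgroup.normalizer (K : Set X) →
      ∃ m : ℤ, ∀ (a : X) (ha : a ∈ E) (ha' : t * a * t⁻¹ ∈ E),
        (QuotientGroup.mk ⟨t * a * t⁻¹, ha'⟩ : ↥E ⧸ K.subgroupOf E) =
          (QuotientGroup.mk ⟨a, ha⟩ : ↥E ⧸ K.subgroupOf E) ^ m := by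
    intro t htE htK
    let c : ↥E →* ↥E :=
      { toFun := fun a => ⟨t * a * t⁻¹, hEc t htE a a.2⟩
        map_one' := Subtype.ext (by simp)
        map_mul' := fun a b => Subtype.ext (by simp) }
    have hc : K.subgroupOf E ≤ (K.subgroupOf E).comap c := by
      intro a ha
      rw [Subgroup.mem_comap, Subgroup.mem_subgroupOf]
      rw [Subgroup.mem_subgroupOf] at ha
      exact (Subgroup.mem_normalizer_iff.1 htK a).1 ha
    obtain ⟨m, hm⟩ := MonoidHom.map_cyclic (QuotientGroup.map _ _ c hc)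
    refine ⟨m, fun a ha ha' => ?_⟩
    rw [← hm]
    rfl
  obtain ⟨mg, hmg⟩ := conj g hgE hgK
  obtain ⟨mh, hmh⟩ := conj h hhE hhK
  obtain ⟨mg', hmg'⟩ := conj g⁻¹ (inv_mem hgE) (inv_mem hgK)
  obtain ⟨mh', hmh'⟩ := conj h⁻¹ (inv_mem hhE) (inv_mem hhK)
  -- cancellation of the exponents
  have hcg : ∀ x : ↥E ⧸ K.subgroupOf E, (x ^ mg') ^ mg = x := by
    intro x
    induction x using QuotientGroup.induction_on with
    | H a =>
      have h1 : g⁻¹ * (a : X) * g⁻¹⁻¹ ∈ E := hEc _ (inv_mem hgE) _ a.2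
      have h2 : g * (g⁻¹ * (a : X) * g⁻¹⁻¹) * g⁻¹ ∈ E := hEc _ hgE _ h1
      have e1 := hmg' a a.2 h1
      have e2 := hmg _ h1 h2
      have e3 : (⟨g * (g⁻¹ * (a : X) * g⁻¹⁻¹) * g⁻¹, h2⟩ : ↥E) = a := Subtype.ext (by group)
      rw [e3, e1] at e2
      exact e2.symm
  have hch : ∀ x : ↥E ⧸ K.subgroupOf E, (x ^ mh') ^ mh = x := by
    intro x
    induction x using QuotientGroup.induction_on with
    | H a =>
      have h1 : h⁻¹ * (a : X) * h⁻¹⁻¹ ∈ E := hEc _ (inv_mem hhE) _ a.2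
      have h2 : h * (h⁻¹ * (a : X) * h⁻¹⁻¹) * h⁻¹ ∈ E := hEc _ hhE _ h1
      have e1 := hmh' a a.2 h1
      have e2 := hmh _ h1 h2
      have e3 : (⟨h * (h⁻¹ * (a : X) * h⁻¹⁻¹) * h⁻¹, h2⟩ : ↥E) = a := Subtype.ext (by group)
      rw [e3, e1] at e2
      exact e2.symm
  have h1 : h⁻¹ * e * h⁻¹⁻¹ ∈ E := hEc _ (inv_mem hhE) _ he
  have h2 : g⁻¹ * (h⁻¹ * e * h⁻¹⁻¹) * g⁻¹⁻¹ ∈ E := hEc _ (inv_mem hgE) _ h1
  have h3 : h * (g⁻¹ * (h⁻¹ * e * h⁻¹⁻¹) * g⁻¹⁻¹) * h⁻¹ ∈ E := hEc _ hhE _ h2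
  have h4 : g * (h * (g⁻¹ * (h⁻¹ * e * h⁻¹⁻¹) * g⁻¹⁻¹) * h⁻¹) * g⁻¹ ∈ E := hEc _ hgE _ h3
  have key : (QuotientGroup.mk ⟨g * (h * (g⁻¹ * (h⁻¹ * e * h⁻¹⁻¹) * g⁻¹⁻¹) * h⁻¹) * g⁻¹, h4⟩ :
      ↥E ⧸ K.subgroupOf E) = QuotientGroup.mk ⟨e, he⟩ := by
    rw [hmg _ h3 h4, hmh _ h2 h3, hmg' _ h1 h2, hmh' e he h1]
    have e5 : ∀ x : ↥E ⧸ K.subgroupOf E,
        (((x ^ mh') ^ mg') ^ mh) ^ mg = (((x ^ mh') ^ mh) ^ mg') ^ mg := by
      intro x
      rw [← zpow_mul, ← zpow_mul, ← zpow_mul, ← zpow_mul, ← zpow_mul, ← zpow_mul]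
      congr 1
      ring
    rw [e5, hch, hcg]
  rw [QuotientGroup.eq_iff_div_mem, Subgroup.mem_subgroupOf, Subgroup.coe_div,
    div_eq_mul_inv] at key
  have e6 : (g * h * g⁻¹ * h⁻¹) * e * (g * h * g⁻¹ * h⁻¹)⁻¹ * e⁻¹ =
      g * (h * (g⁻¹ * (h⁻¹ * e * h⁻¹⁻¹) * g⁻¹⁻¹) * h⁻¹) * g⁻¹ * e⁻¹ := by group
  rw [e6]
  exact key

theorem pq_abs {A : Type*} [Group A] [Finite A] (p q : ℕ) (hp : p.Prime) (hq : q.Prime)
    (hpq : p ≠ q) (hA : Nat.card A = p * q) (hAna : ¬ IsMulCommutative A) :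
    ∃ (p' q' k : ℕ) (y x : A), p'.Prime ∧ q'.Prime ∧ p' * q' = p * q ∧ ¬ k ≡ 1 [MOD q'] ∧
      y ^ q' = 1 ∧ y ≠ 1 ∧ x ^ p' = 1 ∧ x * y * x⁻¹ = y ^ k ∧
      Subgroup.closure ({y, x} : Set A) = ⊤ := by
  classical
  -- reduce to `p < q`
  have main : ∀ p q : ℕ, p.Prime → q.Prime → p < q → Nat.card A = p * q →
      ∃ (k : ℕ) (y x : A), ¬ k ≡ 1 [MOD q] ∧
      y ^ q = 1 ∧ y ≠ 1 ∧ x ^ p = 1 ∧ x * y * x⁻¹ = y ^ k ∧
      Subgroup.closure ({y, x} : Set A) = ⊤ := by
    intro p q hp hq hlt hA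
    have hpF : Fact p.Prime := ⟨hp⟩
    have hqF : Fact q.Prime := ⟨hq⟩
    obtain ⟨y, hy⟩ := exists_prime_orderOf_dvd_card' (G := A) q (by rw [hA]; exact dvd_mul_left q p)
    obtain ⟨x, hx⟩ := exists_prime_orderOf_dvd_card' (G := A) p (by rw [hA]; exact dvd_mul_right p q)
    have hycard : Nat.card (Subgroup.zpowers y) = q := by rw [Nat.card_zpowers, hy]
    have hidx : (Subgroup.zpowers y).index = p := by
      have h1 := (Subgroup.zpowers y).card_mul_index
      rw [hycard, hA, mul_comm p q] at h1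
      exact Nat.eq_of_mul_eq_mul_left hq.pos h1
    have hmin : (Nat.card A).minFac = p := by
      rw [hA]
      apply le_antisymm
      · exact Nat.minFac_le_of_dvd hp.two_le (dvd_mul_right p q)
      · have h1 := Nat.minFac_dvd (p * q)
        have h2 : (p * q).minFac.Prime := Nat.minFac_prime (by
          intro h
          have := hp.two_le
          have := hq.two_le
          nlinarith)
        rcases (Nat.Prime.dvd_mul h2).1 h1 with h | h
        · exact ((Nat.prime_dvd_prime_iff_eq h2 hp).1 h).symm.le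
        · have := (Nat.prime_dvd_prime_iff_eq h2 hq).1 h
          rw [this]
          exact hlt.le
    have hnormal : (Subgroup.zpowers y).Normal :=
      Subgroup.normal_of_index_eq_minFac_card (by rw [hidx, hmin])
    have hconj : x * y * x⁻¹ ∈ Subgroup.zpowers y :=
      hnormal.conj_mem y (Subgroup.mem_zpowers y) x
    rw [← mem_powers_iff_mem_zpowers] at hconj
    obtain ⟨k, hk⟩ := hconj
    have hk' : x * y * x⁻¹ = y ^ k := hk.symm
    have hy1 : y ≠ 1 := by
      intro h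
      rw [h, orderOf_one] at hy
      exact hq.one_lt.ne hy
    have hgen : Subgroup.closure ({y, x} : Set A) = ⊤ := by
      apply Subgroup.eq_top_of_card_eq
      have hyc : y ∈ Subgroup.closure ({y, x} : Set A) :=
        Subgroup.subset_closure (Set.mem_insert y _)
      have hxc : x ∈ Subgroup.closure ({y, x} : Set A) :=
        Subgroup.subset_closure (Set.mem_insert_of_mem y (Set.mem_singleton x))
      have d1 : q ∣ Nat.card (Subgroup.closure ({y, x} : Set A)) := by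
        have := Subgroup.orderOf_dvd_natCard _ hyc
        rwa [hy] at this
      have d2 : p ∣ Nat.card (Subgroup.closure ({y, x} : Set A)) := by
        have := Subgroup.orderOf_dvd_natCard _ hxc
        rwa [hx] at this
      have hcop : Nat.Coprime p q := (Nat.coprime_primes hp hq).2 hlt.ne
      have d3 : p * q ∣ Nat.card (Subgroup.closure ({y, x} : Set A)) :=
        hcop.mul_dvd_of_dvd_of_dvd d2 d1
      have d4 : Nat.card (Subgroup.closure ({y, x} : Set A)) ∣ p * q := by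
        rw [← hA]
        exact Subgroup.card_subgroup_dvd_card _
      rw [hA]
      exact Nat.dvd_antisymm d4 d3
    refine ⟨k, y, x, ?_, ?_, hy1, ?_, hk', hgen⟩
    · intro hmod
      apply hAna
      have hyk : y ^ k = y := by
        have h1 : y ^ k = y ^ 1 := pow_eq_pow_iff_modEq.2 (by rw [hy]; exact hmod)
        rwa [pow_one] at h1
      have hxy : x * y = y * x := by
        have := hk'
        rw [hyk] at this
        exact mul_inv_eq_iff_eq_mul.1 this
      have hcen : ∀ t : A, t = y ∨ t = x → ∀ a : A, t * a = a * t := by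
        intro t ht a
        have ha : a ∈ Subgroup.closure ({y, x} : Set A) := by rw [hgen]; exact Subgroup.mem_top a
        have hle : Subgroup.closure ({y, x} : Set A) ≤ Subgroup.centralizer {t} := by
          rw [Subgroup.closure_le]
          intro s hs
          rw [SetLike.mem_coe, Subgroup.mem_centralizer_iff]
          intro t' ht'
          rw [Set.mem_singleton_iff] at ht'
          subst ht'
          rcases hs with rfl | hs
          · rcases ht with rfl | rfl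
            · rfl
            · exact hxy
          · rw [Set.mem_singleton_iff] at hs
            subst hs
            rcases ht with rfl | rfl
            · exact hxy.symm
            · rfl
        have h2 := hle ha
        rw [Subgroup.mem_centralizer_iff] at h2
        exact h2 t rfl
      refine ⟨⟨fun a b => ?_⟩⟩
      have hb : b ∈ Subgroup.closure ({y, x} : Set A) := by rw [hgen]; exact Subgroup.mem_top b
      have hle : Subgroup.closure ({y, x} : Set A) ≤ Subgroup.centralizer {a} := by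
        rw [Subgroup.closure_le]
        intro s hs
        rw [SetLike.mem_coe, Subgroup.mem_centralizer_iff]
        intro t' ht'
        rw [Set.mem_singleton_iff] at ht'
        subst ht'
        rcases hs with rfl | hs
        · exact (hcen s (Or.inl rfl) t').symm
        · rw [Set.mem_singleton_iff] at hs
          subst hs
          exact (hcen s (Or.inr rfl) t').symm
      have h2 := hle hb
      rw [Subgroup.mem_centralizer_iff] at h2
      exact h2 a rfl
    · rw [← hy]; exact pow_orderOf_eq_one y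
    · rw [← hx]; exact pow_orderOf_eq_one x
  rcases lt_or_gt_of_ne hpq with hlt | hlt
  · obtain ⟨k, y, x, h1, h2, h3, h4, h5, h6⟩ := main p q hp hq hlt hA
    exact ⟨p, q, k, y, x, hp, hq, rfl, h1, h2, h3, h4, h5, h6⟩
  · obtain ⟨k, y, x, h1, h2, h3, h4, h5, h6⟩ := main q p hq hp hlt (by rw [hA, mul_comm])
    exact ⟨q, p, k, y, x, hq, hp, mul_comm q p, h1, h2, h3, h4, h5, h6⟩

end Cfsg.Agent.H26.Fz

section verify
universe u

example {X : Type u} [Group X] [Finite X] : Cfsg.Agent.H58.Fz.IND X := Cfsg.Agent.H26.Fz.ind_holds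
example {X : Type u} [Group X] [Finite X] : Cfsg.Agent.H58.Fz.CYC X := Cfsg.Agent.H26.Fz.cyc_holds

example {A : Type*} [Group A] [Finite A] (p q : ℕ) (hp : p.Prime) (hq : q.Prime)
    (hpq : p ≠ q) (hA : Nat.card A = p * q) (hAna : ¬ IsMulCommutative A) :
    ∃ (p' q' k : ℕ) (y x : A), p'.Prime ∧ q'.Prime ∧ p' * q' = p * q ∧ ¬ k ≡ 1 [MOD q'] ∧
      y ^ q' = 1 ∧ y ≠ 1 ∧ x ^ p' = 1 ∧ x * y * x⁻¹ = y ^ k ∧
      Subgroup.closure ({y, x} : Set A) = ⊤ :=
  Cfsg.Agent.H26.Fz.pq_abs p q hp hq hpq hA hAna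

end verify

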