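import Mathlib
import Cfsg.Prelude.Def_Characters
import Cfsg.Agent.H4.Irr
import Cfsg.Agent.H81.GL23Defs

/-!
# S0197 team project (helper81), piece GENVEC: generalized characters as integer vectors.
-/

set_option autoImplicit false

namespace Cfsg.Agent.H26.GL23

open Cfsg Cfsg.Agent.H4
open scoped ComplexConjugate

universe u

/-- a generalized character is an integer combination of irreducible characters -/
theorem genChar_int_decomp {G : Type u} [Group G] [Fintype G] [Fintype (IrrCharacter G)]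
    (θ : G → ℂ) (hθ : IsGeneralizedCharacter G θ) :
    ∃ c : IrrCharacter G → ℤ, θ = ∑ χ : IrrCharacter G, (c χ : ℂ) • (χ : G → ℂ) := by
  obtain ⟨χ, ψ, ⟨n1, ρ1, h1⟩, ⟨n2, ρ2, h2⟩, rfl⟩ := hθ
  obtain ⟨m1, hm1⟩ := character_decomp ρ1
  obtain ⟨m2, hm2⟩ := character_decomp ρ2
  refine ⟨fun χ => (m1 χ : ℤ) - (m2 χ : ℤ), ?_⟩
  rw [← h1, ← h2, hm1, hm2, finsum_eq_sum_of_fintype, finsum_eq_sum_of_fintype,
    ← Finset.sum_sub_distrib]
  refine Finset.sum_congr rfl fun χ _ => ?_
  push_cast
  rw [sub_smul]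

theorem classInner_sum_irr_left {G : Type u} [Group G] [Fintype G] [Fintype (IrrCharacter G)]
    (c : IrrCharacter G → ℂ) (ψ : IrrCharacter G) :
    classInner (∑ χ : IrrCharacter G, c χ • (χ : G → ℂ)) ψ.1 = c ψ := by
  classical
  rw [classInner_sum_left]
  simp only [classInner_smul_left, irr_inner]
  rw [Finset.sum_eq_single ψ]
  · simp
  · intro χ _ hχ; simp [hχ]
  · intro h'; exact absurd (Finset.mem_univ ψ) h'

open Cfsg.Agent.H81.GL23 in
theorem genVec : StmtGenVec.{u} := by
  intro G _ _ _ n M hM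
  choose c hc using fun k => genChar_int_decomp (M k) (hM k)
  have h2 : ∀ (χ : IrrCharacter G) (k : Fin n),
      classInner (χ : G → ℂ) (M k) = (c k χ : ℂ) := by
    intro χ k
    rw [← classInner_conj_symm]
    conv_lhs => rw [hc k]
    rw [classInner_sum_irr_left (fun χ => (c k χ : ℂ)) χ]
    simp
  refine ⟨fun χ k => c k χ, ?_, h2, ?_⟩
  · intro k g
    conv_lhs => rw [hc k]
    simp [Finset.sum_apply]
  · intro k l
    conv_lhs => rw [hc k]
    rw [classInner_sum_left]
    refine Finset.sum_congr rfl fun χ _ => ?_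
    rw [classInner_smul_left, h2 χ l]

example : Cfsg.Agent.H81.GL23.StmtGenVec.{u} := genVec

end Cfsg.Agent.H26.GL23
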