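import Mathlib
import Cfsg.Agent.H81.GL23Defs

/-!
# S0197 team project (helper81), piece MAT: the local configuration in `GL(2,3)`.
-/

set_option autoImplicit false

namespace Cfsg.Agent.H26.GL23

open Cfsg.Agent.H81.GL23

universe u v

/-! ### transport of `Loc` along an isomorphism -/

theorem loc_transport {C₁ : Type u} {C₂ : Type v} [Group C₁] [Group C₂] (f : C₁ ≃* C₂)
    {t x v : C₁} (h : Loc t x v) : Loc (f t) (f x) (f v) where
  tcent g := by
    have := congrArg f (h.tcent (f.symm g))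
    simpa using this
  ht := by rw [MulEquiv.orderOf_eq]; exact h.ht
  card := by rw [← Nat.card_congr f.toEquiv]; exact h.card
  hx := by rw [MulEquiv.orderOf_eq]; exact h.hx
  hx4 := by rw [← map_pow, h.hx4]
  hv := by rw [MulEquiv.orderOf_eq]; exact h.hv
  hv3 := by rw [← map_pow, h.hv3]
  centX g hg := by
    have h1 : f.symm g * x = x * f.symm g := by
      apply f.injective
      simpa using hg
    obtain ⟨k, hk⟩ := Subgroup.mem_zpowers_iff.mp (h.centX _ h1)
    refine Subgroup.mem_zpowers_iff.mpr ⟨k, ?_⟩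
    rw [← map_zpow, hk]
    simp
  centY g hg := by
    have h1 : f.symm g * x ^ 2 = x ^ 2 * f.symm g := by
      apply f.injective
      simpa using hg
    obtain ⟨k, hk⟩ := Subgroup.mem_zpowers_iff.mp (h.centY _ h1)
    refine Subgroup.mem_zpowers_iff.mpr ⟨k, ?_⟩
    rw [← map_zpow, hk]
    simp
  centV g hg := by
    have h1 : f.symm g * v = v * f.symm g := by
      apply f.injective
      simpa using hg
    obtain ⟨k, hk⟩ := Subgroup.mem_zpowers_iff.mp (h.centV _ h1)
    refine Subgroup.mem_zpowers_iff.mpr ⟨k, ?_⟩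
    rw [← map_zpow, hk]
    simp
  fusX := by
    obtain ⟨g, hg⟩ := h.fusX
    refine ⟨f g, ?_⟩
    rw [← map_pow, ← hg]
    simp
  notX g hg := by
    apply h.notX (f.symm g)
    apply f.injective
    simpa using hg
  fusV := by
    obtain ⟨g, hg⟩ := h.fusV
    refine ⟨f g, ?_⟩
    have := congrArg f hg
    simpa using this
  invY := by
    obtain ⟨s, hs, hcard⟩ := h.invY
    refine ⟨f s, ?_, ?_⟩
    · intro w hw hw2
      have h1 : orderOf (f.symm w) = 2 := by rw [MulEquiv.orderOf_eq]; exact hw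
      have h2 : f.symm w * x ^ 2 * (f.symm w)⁻¹ = (x ^ 2)⁻¹ := by
        apply f.injective
        simpa using hw2
      obtain ⟨g, hg⟩ := hs _ h1 h2
      refine ⟨f g, ?_⟩
      have := congrArg f hg
      simpa using this
    · rw [← hcard]
      refine Nat.card_congr (Equiv.subtypeEquiv f.symm.toEquiv ?_)
      intro w
      constructor
      · rintro ⟨hw, hw2⟩
        refine ⟨by rw [MulEquiv.toEquiv_eq_coe, MulEquiv.coe_toEquiv, MulEquiv.orderOf_eq]; exact hw, ?_⟩
        apply f.injective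
        simpa using hw2
      · rintro ⟨hw, hw2⟩
        rw [MulEquiv.toEquiv_eq_coe, MulEquiv.coe_toEquiv] at hw hw2
        refine ⟨by rw [MulEquiv.orderOf_eq] at hw; exact hw, ?_⟩
        have := congrArg f hw2
        simpa using this

/-! ### matrices -/

abbrev M3 := Matrix (Fin 2) (Fin 2) (ZMod 3)
abbrev GL3 := Matrix.GeneralLinearGroup (Fin 2) (ZMod 3)

def mX : M3 := !![0, 1; 1, 1]
def mXi : M3 := !![2, 1; 1, 0]
def mV : M3 := !![2, 2; 0, 2]
def mVi : M3 := !![2, 1; 0, 2]
def mT : M3 := !![2, 0; 0, 2]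
def mS : M3 := !![1, 0; 0, 2]
def mG : M3 := !![0, 1; 2, 0]
def mGi : M3 := !![0, 2; 1, 0]
def mW1 : M3 := !![1, 0; 1, 2]
def mW2 : M3 := !![1, 1; 0, 2]
def mW3 : M3 := !![2, 0; 2, 1]
def mW4 : M3 := !![2, 2; 0, 1]
def mG1 : M3 := !![1, 0; 2, 1]
def mG1i : M3 := !![1, 0; 1, 1]
def mG2 : M3 := !![1, 1; 0, 1]
def mG2i : M3 := !![1, 2; 0, 1]
def mG3 : M3 := !![0, 1; 1, 2]
def mG3i : M3 := !![1, 1; 1, 0]

/-- a unit from a matrix and its inverse -/
def gl (A B : M3) (h1 : A * B = 1) (h2 : B * A = 1) : GL3 := ⟨A, B, h1, h2⟩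

def x0 : GL3 := gl mX mXi (by decide) (by decide)
def x0i : GL3 := gl mXi mX (by decide) (by decide)
def v0 : GL3 := gl mV mVi (by decide) (by decide)
def v0i : GL3 := gl mVi mV (by decide) (by decide)
def t0 : GL3 := gl mT mT (by decide) (by decide)
def s0 : GL3 := gl mS mS (by decide) (by decide)
def g0 : GL3 := gl mG mGi (by decide) (by decide)
def w1 : GL3 := gl mW1 mW1 (by decide) (by decide)
def w2 : GL3 := gl mW2 mW2 (by decide) (by decide)
def w3 : GL3 := gl mW3 mW3 (by decide) (by decide)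
def w4 : GL3 := gl mW4 mW4 (by decide) (by decide)
def g1 : GL3 := gl mG1 mG1i (by decide) (by decide)
def g2 : GL3 := gl mG2 mG2i (by decide) (by decide)
def g3 : GL3 := gl mG3 mG3i (by decide) (by decide)
def g4 : GL3 := gl mG3i mG3 (by decide) (by decide)

theorem gl_val (g : GL3) : (g : M3) = !![(g : M3) 0 0, (g : M3) 0 1; (g : M3) 1 0, (g : M3) 1 1] :=
  Matrix.eta_fin_two _

theorem gl_det (g : GL3) : (g : M3) 0 0 * (g : M3) 1 1 - (g : M3) 0 1 * (g : M3) 1 0 ≠ 0 := by
  have h1 : IsUnit (g : M3).det := (Matrix.isUnit_iff_isUnit_det _).mp g.isUnit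
  rw [Matrix.det_fin_two] at h1
  exact h1.ne_zero

set_option maxRecDepth 100000 in
theorem m_centX : ∀ a b c d : ZMod 3, a * d - b * c ≠ 0 → !![a, b; c, d] * mX = mX * !![a, b; c, d] →
    ∃ k : Fin 8, !![a, b; c, d] = mX ^ (k : ℕ) := by decide

set_option maxRecDepth 100000 in
theorem m_centY : ∀ a b c d : ZMod 3, a * d - b * c ≠ 0 →
    !![a, b; c, d] * mX ^ 2 = mX ^ 2 * !![a, b; c, d] →
    ∃ k : Fin 8, !![a, b; c, d] = mX ^ (k : ℕ) := by decide

set_option maxRecDepth 100000 in
theorem m_centV : ∀ a b c d : ZMod 3, a * d - b * c ≠ 0 → !![a, b; c, d] * mV = mV * !![a, b; c, d] →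
    ∃ k : Fin 6, !![a, b; c, d] = mV ^ (k : ℕ) := by decide

set_option maxRecDepth 100000 in
theorem m_notX : ∀ a b c d : ZMod 3, a * d - b * c ≠ 0 →
    !![a, b; c, d] * mX ≠ mXi * !![a, b; c, d] := by decide

set_option maxRecDepth 100000 in
theorem m_invY : ∀ a b c d : ZMod 3, !![a, b; c, d] * !![a, b; c, d] = 1 → !![a, b; c, d] ≠ 1 →
    !![a, b; c, d] * mX ^ 2 = mXi ^ 2 * !![a, b; c, d] →
    !![a, b; c, d] = mW1 ∨ !![a, b; c, d] = mW2 ∨ !![a, b; c, d] = mW3 ∨ !![a, b; c, d] = mW4 := by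
  decide

set_option maxRecDepth 100000 in
theorem m_inv2 : ∀ k : Fin 8, mX ^ (k : ℕ) * mX ^ (k : ℕ) = 1 → mX ^ (k : ℕ) ≠ 1 →
    mX ^ (k : ℕ) = mT := by decide

/-! ### the group-level statements -/

theorem gl_centX (g : GL3) (hg : g * x0 = x0 * g) : ∃ k : Fin 8, g = x0 ^ (k : ℕ) := by
  have h1 : (g : M3) * mX = mX * (g : M3) := congrArg Units.val hg
  rw [gl_val g] at h1
  obtain ⟨k, hk⟩ := m_centX _ _ _ _ (gl_det g) h1
  refine ⟨k, Units.ext ?_⟩
  rw [Units.val_pow_eq_pow_val, gl_val g]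
  exact hk

theorem gl_centY (g : GL3) (hg : g * x0 ^ 2 = x0 ^ 2 * g) : ∃ k : Fin 8, g = x0 ^ (k : ℕ) := by
  have h1 : (g : M3) * mX ^ 2 = mX ^ 2 * (g : M3) := by
    have := congrArg Units.val hg
    rw [Units.val_mul, Units.val_mul, Units.val_pow_eq_pow_val] at this
    exact this
  rw [gl_val g] at h1
  obtain ⟨k, hk⟩ := m_centY _ _ _ _ (gl_det g) h1
  refine ⟨k, Units.ext ?_⟩
  rw [Units.val_pow_eq_pow_val, gl_val g]
  exact hk

theorem gl_centV (g : GL3) (hg : g * v0 = v0 * g) : ∃ k : Fin 6, g = v0 ^ (k : ℕ) := by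
  have h1 : (g : M3) * mV = mV * (g : M3) := congrArg Units.val hg
  rw [gl_val g] at h1
  obtain ⟨k, hk⟩ := m_centV _ _ _ _ (gl_det g) h1
  refine ⟨k, Units.ext ?_⟩
  rw [Units.val_pow_eq_pow_val, gl_val g]
  exact hk

theorem x0_inv : x0⁻¹ = x0i := inv_eq_of_mul_eq_one_right (Units.ext (by decide : mX * mXi = 1))

theorem v0_inv : v0⁻¹ = v0i := inv_eq_of_mul_eq_one_right (Units.ext (by decide : mV * mVi = 1))

theorem x0sq_inv : (x0 ^ 2)⁻¹ = x0i ^ 2 := by
  rw [← x0_inv, inv_pow]

theorem ord_x0 : orderOf x0 = 8 := by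
  have h1 : ¬ x0 ^ 2 ^ 2 = 1 := by
    intro h
    have := congrArg Units.val h
    rw [Units.val_pow_eq_pow_val] at this
    revert this
    change ¬ (mX ^ 2 ^ 2 = 1)
    decide
  have h2 : x0 ^ 2 ^ (2 + 1) = 1 := by
    apply Units.ext
    rw [Units.val_pow_eq_pow_val]
    change mX ^ 2 ^ (2 + 1) = 1
    decide
  exact orderOf_eq_prime_pow h1 h2

theorem ord_t0 : orderOf t0 = 2 := by
  apply orderOf_eq_prime
  · apply Units.ext
    rw [Units.val_pow_eq_pow_val]
    change mT ^ 2 = 1
    decide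
  · intro h
    have := congrArg Units.val h
    revert this
    change ¬ (mT = 1)
    decide

theorem ord_v0 : orderOf v0 = 6 := by
  rw [orderOf_eq_iff (by norm_num)]
  refine ⟨?_, ?_⟩
  · apply Units.ext
    rw [Units.val_pow_eq_pow_val]
    change mV ^ 6 = 1
    decide
  · intro m hm hm0 h
    have := congrArg Units.val h
    rw [Units.val_pow_eq_pow_val] at this
    revert this
    change ¬ (mV ^ m = 1)
    interval_cases m <;> decide

theorem ord_w (w : GL3) (h1 : (w : M3) * (w : M3) = 1) (h2 : (w : M3) ≠ 1) : orderOf w = 2 := by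
  apply orderOf_eq_prime
  · apply Units.ext
    rw [Units.val_pow_eq_pow_val, pow_two]
    exact h1
  · intro h
    exact h2 (congrArg Units.val h)

theorem conj_of {g a b : GL3} (h : (g : M3) * (a : M3) = (b : M3) * (g : M3)) :
    g * a * g⁻¹ = b := by
  rw [mul_inv_eq_iff_eq_mul]
  exact Units.ext h

theorem card_gl3 : Nat.card GL3 = 48 := by
  rw [Matrix.card_GL_field]
  simp [Fin.prod_univ_two]

theorem card_w : ({w1, w2, w3, w4} : Finset GL3).card = 4 := by decide

theorem loc_gl : Loc t0 x0 v0 where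
  tcent g := by
    apply Units.ext
    change (g : M3) * mT = mT * (g : M3)
    rw [gl_val g]
    generalize (g : M3) 0 0 = a
    generalize (g : M3) 0 1 = b
    generalize (g : M3) 1 0 = c
    generalize (g : M3) 1 1 = d
    revert a b c d
    decide
  ht := ord_t0
  card := card_gl3
  hx := ord_x0
  hx4 := by
    apply Units.ext
    rw [Units.val_pow_eq_pow_val]
    change mX ^ 4 = mT
    decide
  hv := ord_v0
  hv3 := by
    apply Units.ext
    rw [Units.val_pow_eq_pow_val]
    change mV ^ 3 = mT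
    decide
  centX g hg := by
    obtain ⟨k, hk⟩ := gl_centX g hg
    rw [hk]
    exact Subgroup.npow_mem_zpowers _ _
  centY g hg := by
    obtain ⟨k, hk⟩ := gl_centY g hg
    rw [hk]
    exact Subgroup.npow_mem_zpowers _ _
  centV g hg := by
    obtain ⟨k, hk⟩ := gl_centV g hg
    rw [hk]
    exact Subgroup.npow_mem_zpowers _ _
  fusX := by
    refine ⟨g0, conj_of ?_⟩
    rw [Units.val_pow_eq_pow_val]
    change mG * mX = mX ^ 3 * mG
    decide
  notX g hg := by
    rw [x0_inv, mul_inv_eq_iff_eq_mul] at hg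
    have h1 : (g : M3) * mX = mXi * (g : M3) := congrArg Units.val hg
    rw [gl_val g] at h1
    exact m_notX _ _ _ _ (gl_det g) h1
  fusV := by
    refine ⟨s0, ?_⟩
    rw [v0_inv]
    apply conj_of
    change mS * mV = mVi * mS
    decide
  invY := by
    have key : ∀ w : GL3, orderOf w = 2 → w * x0 ^ 2 * w⁻¹ = (x0 ^ 2)⁻¹ →
        w = w1 ∨ w = w2 ∨ w = w3 ∨ w = w4 := by
      intro w hw hw2
      have h1 : (w : M3) * (w : M3) = 1 := by
        have : w ^ 2 = 1 := by
          have h := pow_orderOf_eq_one w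
          rw [hw] at h
          exact h
        have := congrArg Units.val this
        rw [Units.val_pow_eq_pow_val, pow_two] at this
        exact this
      have h2 : (w : M3) ≠ 1 := by
        intro h
        have : w = 1 := Units.ext h
        rw [this, orderOf_one] at hw
        exact absurd hw (by norm_num)
      have h3 : (w : M3) * mX ^ 2 = mXi ^ 2 * (w : M3) := by
        rw [x0sq_inv, mul_inv_eq_iff_eq_mul] at hw2
        have := congrArg Units.val hw2
        rw [Units.val_mul, Units.val_mul, Units.val_pow_eq_pow_val, Units.val_pow_eq_pow_val] at this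
        exact this
      rw [gl_val w] at h1 h2 h3
      have h4 := m_invY _ _ _ _ h1 h2 h3
      rw [← gl_val w] at h4
      rcases h4 with h | h | h | h
      · exact Or.inl (Units.ext h)
      · exact Or.inr (Or.inl (Units.ext h))
      · exact Or.inr (Or.inr (Or.inl (Units.ext h)))
      · exact Or.inr (Or.inr (Or.inr (Units.ext h)))
    have hmem : ∀ w : GL3, (w : M3) * (w : M3) = 1 → (w : M3) ≠ 1 →
        (w : M3) * mX ^ 2 = mXi ^ 2 * (w : M3) →
        orderOf w = 2 ∧ w * x0 ^ 2 * w⁻¹ = (x0 ^ 2)⁻¹ := by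
      intro w h1 h2 h3
      refine ⟨ord_w w h1 h2, ?_⟩
      rw [x0sq_inv]
      apply conj_of
      rw [Units.val_pow_eq_pow_val, Units.val_pow_eq_pow_val]
      exact h3
    refine ⟨s0, ?_, ?_⟩
    · intro w hw hw2
      rcases key w hw hw2 with rfl | rfl | rfl | rfl
      · exact ⟨g1, conj_of (by change mG1 * mS = mW1 * mG1; decide)⟩
      · exact ⟨g2, conj_of (by change mG2 * mS = mW2 * mG2; decide)⟩
      · exact ⟨g3, conj_of (by change mG3 * mS = mW3 * mG3; decide)⟩
      · exact ⟨g4, conj_of (by change mG3i * mS = mW4 * mG3i; decide)⟩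
    · have hset : {w : GL3 | orderOf w = 2 ∧ w * x0 ^ 2 * w⁻¹ = (x0 ^ 2)⁻¹} =
          (({w1, w2, w3, w4} : Finset GL3) : Set GL3) := by
        ext w
        simp only [Set.mem_ofPred_eq, Finset.coe_insert, Finset.coe_singleton,
          Set.mem_insert_iff, Set.mem_singleton_iff]
        constructor
        · rintro ⟨hw, hw2⟩
          exact key w hw hw2
        · rintro (rfl | rfl | rfl | rfl)
          · exact hmem w1 (by change mW1 * mW1 = 1; decide) (by change mW1 ≠ 1; decide)
              (by change mW1 * mX ^ 2 = mXi ^ 2 * mW1; decide)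
          · exact hmem w2 (by change mW2 * mW2 = 1; decide) (by change mW2 ≠ 1; decide)
              (by change mW2 * mX ^ 2 = mXi ^ 2 * mW2; decide)
          · exact hmem w3 (by change mW3 * mW3 = 1; decide) (by change mW3 ≠ 1; decide)
              (by change mW3 * mX ^ 2 = mXi ^ 2 * mW3; decide)
          · exact hmem w4 (by change mW4 * mW4 = 1; decide) (by change mW4 ≠ 1; decide)
              (by change mW4 * mX ^ 2 = mXi ^ 2 * mW4; decide)
      change Nat.card ↥{w : GL3 | orderOf w = 2 ∧ w * x0 ^ 2 * w⁻¹ = (x0 ^ 2)⁻¹} = 4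
      rw [hset, Nat.card_coe_set_eq, Set.ncard_coe_finset]
      exact card_w

/-! ### the piece -/

theorem mat : StmtMat.{u} := by
  intro C _ e t ht htc
  have hloc := loc_gl
  have hcomm : e t * x0 = x0 * e t := by
    have := congrArg e (htc (e.symm x0))
    simpa using this.symm
  obtain ⟨k, hk⟩ := gl_centX (e t) hcomm
  have hord : orderOf (e t) = 2 := by rw [MulEquiv.orderOf_eq]; exact ht
  have het : e t = t0 := by
    have h1 : (e t) ^ 2 = 1 := by
      have h := pow_orderOf_eq_one (e t)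
      rw [hord] at h
      exact h
    have h2 : e t ≠ 1 := by
      intro h
      rw [h, orderOf_one] at hord
      exact absurd hord (by norm_num)
    rw [hk] at h1 h2 ⊢
    have h1' : mX ^ (k : ℕ) * mX ^ (k : ℕ) = 1 := by
      have := congrArg Units.val h1
      rw [Units.val_pow_eq_pow_val, Units.val_pow_eq_pow_val, pow_two] at this
      exact this
    have h2' : mX ^ (k : ℕ) ≠ 1 := by
      intro h
      apply h2
      apply Units.ext
      rw [Units.val_pow_eq_pow_val]
      exact h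
    apply Units.ext
    rw [Units.val_pow_eq_pow_val]
    exact m_inv2 k h1' h2'
  refine ⟨e.symm x0, e.symm v0, ?_⟩
  have h3 := loc_transport e.symm hloc
  have ht' : e.symm t0 = t := by rw [← het]; simp
  rwa [ht'] at h3

example : Cfsg.Agent.H81.GL23.StmtMat.{u} := mat

end Cfsg.Agent.H26.GL23
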