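import Cfsg.Agent.H52.JxDefs
import Cfsg.Agent.H73.JyVT
import Cfsg.Agent.H48.JxVne
import Cfsg.Agent.H19.JxStarSt
import Cfsg.Agent.H82.JvCaseA
import Cfsg.Agent.H8.JyExA
import Cfsg.Agent.H29.R1Out

/-!
S2953 (team project JY), the kill of the residual configuration, from ONE hypothesis: the
P-side Prop of the kill plan (index 2 of `O₂(K ⊔ T)` in `T`; `T ∖ O₂(K ⊔ T)` inverts `K` modulo
`O₂(K ⊔ T)`; an element of order 3 of `K` outside the base).  Both cases (`V ≤ Q₁` through the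
counting core, `V` not inside `Q₁` through the core `r1_out_core`) and the assembly.
-/

set_option autoImplicit false
open Cfsg

namespace Cfsg.Agent.H26.Jx

open Cfsg.Agent.H64.Jz Cfsg.Agent.H64.Jy Cfsg.Agent.H52.Jx

universe u

/-- The P-side Prop of the kill plan, stated inline. -/
def PSideShape : Prop := ∀ {G : Type u} [Group G] [Finite G] (S : Sylow 2 G)
    (M T K L : Subgroup G), Base S M T K L →
  (∀ a ∈ T, ∀ b ∈ T, a ∉ pCoreOf 2 (K ⊔ T) → b ∉ pCoreOf 2 (K ⊔ T) →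
    a * b ∈ pCoreOf 2 (K ⊔ T)) ∧
  (∀ x ∈ T, x ∉ pCoreOf 2 (K ⊔ T) → ∀ g ∈ K, x * g * x⁻¹ * g ∈ pCoreOf 2 (K ⊔ T)) ∧
  ∃ k ∈ K, k ^ 3 = 1 ∧ k ∉ M

theorem kb_mem_normalizer {G : Type u} [Group G] [Finite G] (H : Subgroup G) (s : G)
    (h : ∀ q ∈ H, s * q * s⁻¹ ∈ H) : s ∈ Subgroup.normalizer (H : Set G) := by
  rw [Subgroup.mem_normalizer_iff]
  intro x
  refine ⟨h x, fun hx => ?_⟩
  have hinj : Function.Injective (fun q : H => (⟨s * q * s⁻¹, h q q.2⟩ : H)) := by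
    intro a b hab
    have h1 : s * (a : G) * s⁻¹ = s * (b : G) * s⁻¹ := congrArg Subtype.val hab
    have h2 : (a : G) = b := by
      have := congrArg (fun y => s⁻¹ * y * s) h1
      simpa [mul_assoc] using this
    exact Subtype.ext h2
  obtain ⟨q, hq⟩ := (Finite.injective_iff_surjective.mp hinj) ⟨s * x * s⁻¹, hx⟩
  have h1 : s * (q : G) * s⁻¹ = s * x * s⁻¹ := congrArg Subtype.val hq
  have h2 : (q : G) = x := by
    have := congrArg (fun y => s⁻¹ * y * s) h1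
    simpa [mul_assoc] using this
  rw [← h2]; exact q.2

/-- Abstract glue for the case `V` not inside `Q₁`. -/
theorem kb_core_min {G : Type u} [Group G] [Finite G]
    (S V T' Q₁ K' : Subgroup G) (z k : G)
    (hV4 : Nat.card ↥V = 4) (hVe : ∀ v ∈ V, v * v = 1)
    (hSV : S ≤ Subgroup.normalizer (V : Set G))
    (hzV : z ∈ V) (hz1 : z ≠ 1) (hzS : ∀ s ∈ S, s * z = z * s)
    (hVT : V ≤ T') (hVQ : ¬ V ≤ Q₁)
    (hT'S : T' ≤ S) (hQT : Q₁ ≤ T') (hzQ : z ∈ Q₁)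
    (hTQ : T' ≤ Subgroup.normalizer (Q₁ : Set G)) (hKQ : K' ≤ Subgroup.normalizer (Q₁ : Set G))
    (hidx : ∀ a ∈ T', ∀ b ∈ T', a ∉ Q₁ → b ∉ Q₁ → a * b ∈ Q₁)
    (hinv : ∀ x ∈ T', x ∉ Q₁ → ∀ g ∈ K', x * g * x⁻¹ * g ∈ Q₁)
    (hkK : k ∈ K') (hk3 : k ^ 3 = 1) (hkz : k * z * k⁻¹ ≠ z) :
    ∀ s ∈ S, s ∈ Subgroup.normalizer (T' : Set G) → s ∈ Subgroup.normalizer (Q₁ : Set G) := by
  intro s hsS hsT
  obtain ⟨v, hvV, hvQ⟩ := SetLike.not_le_iff_exists.mp hVQ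
  have hvT : v ∈ T' := hVT hvV
  have hv2 : v * v = 1 := hVe v hvV
  have hz2 : z * z = 1 := hVe z hzV
  have hvinv : v⁻¹ = v := inv_eq_of_mul_eq_one_left hv2
  have hVQ2 : ∀ c ∈ V, c ∈ Q₁ → c = 1 ∨ c = z := by
    have hd : Nat.card ↥(V ⊓ Q₁) ∣ 4 :=
      hV4 ▸ Subgroup.card_dvd_of_le (inf_le_left : V ⊓ Q₁ ≤ V)
    have hle : Nat.card ↥(V ⊓ Q₁) ≤ 4 := Nat.le_of_dvd (by norm_num) hd
    have hzI : z ∈ V ⊓ Q₁ := ⟨hzV, hzQ⟩
    have h2 : Nat.card ↥(V ⊓ Q₁) = 2 := by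
      have hne1 : Nat.card ↥(V ⊓ Q₁) ≠ 1 := by
        intro h1
        have hbot : V ⊓ Q₁ = ⊥ := Subgroup.card_eq_one.mp h1
        rw [hbot, Subgroup.mem_bot] at hzI
        exact hz1 hzI
      have hne4 : Nat.card ↥(V ⊓ Q₁) ≠ 4 := by
        intro h4
        have hEq : V ⊓ Q₁ = V :=
          Subgroup.eq_of_le_of_card_ge inf_le_left (by rw [h4, hV4])
        have hv' : v ∈ V ⊓ Q₁ := by rw [hEq]; exact hvV
        exact hvQ hv'.2
      have hne0 : Nat.card ↥(V ⊓ Q₁) ≠ 0 := Nat.card_pos.ne'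
      have hne3 : Nat.card ↥(V ⊓ Q₁) ≠ 3 := by
        intro h3; rw [h3] at hd; norm_num at hd
      omega
    intro c hcV hcQ
    by_contra hcon
    rw [not_or] at hcon
    obtain ⟨y, -, hy⟩ := (Nat.card_eq_two_iff' (1 : ↥(V ⊓ Q₁))).mp h2
    have e1 := hy ⟨z, hzI⟩ (by intro h; exact hz1 (congrArg Subtype.val h))
    have e2 := hy ⟨c, hcV, hcQ⟩ (by intro h; exact hcon.1 (congrArg Subtype.val h))
    exact hcon.2 (congrArg Subtype.val (e2.trans e1.symm))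
  have hzT : ∀ t ∈ T', t * z = z * t := fun t ht => hzS t (hT'S ht)
  have hQv : ∀ q ∈ Q₁, v * q * v⁻¹ = q ∨ v * q * v⁻¹ = q * z := by
    intro q hq
    have hqS : q ∈ S := hT'S (hQT hq)
    have h1 : v * q * v⁻¹ ∈ Q₁ := ((Subgroup.mem_normalizer_iff.mp (hTQ hvT)) q).mp hq
    have h2 : q * v⁻¹ * q⁻¹ ∈ V :=
      ((Subgroup.mem_normalizer_iff.mp (hSV hqS)) v⁻¹).mp (V.inv_mem hvV)
    have hc1 : v * q * v⁻¹ * q⁻¹ ∈ Q₁ := Q₁.mul_mem h1 (Q₁.inv_mem hq)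
    have hc2 : v * q * v⁻¹ * q⁻¹ ∈ V := by
      have he : v * q * v⁻¹ * q⁻¹ = v * (q * v⁻¹ * q⁻¹) := by group
      rw [he]; exact V.mul_mem hvV h2
    rcases hVQ2 _ hc2 hc1 with h | h
    · left
      exact mul_inv_eq_one.mp h
    · right
      rw [mul_inv_eq_iff_eq_mul] at h
      rw [h]; exact (hzT q (hQT hq)).symm
  have hsv : s * v * s⁻¹ = v ∨ s * v * s⁻¹ = v * z := by
    have h1 : s * v * s⁻¹ ∈ V := ((Subgroup.mem_normalizer_iff.mp (hSV hsS)) v).mp hvV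
    have h2 : s * v * s⁻¹ ∈ T' := ((Subgroup.mem_normalizer_iff.mp hsT) v).mp hvT
    have h3 : s * v * s⁻¹ ∉ Q₁ := by
      intro hin
      rcases hVQ2 _ h1 hin with h | h
      · have hv1 : v = 1 := by
          calc v = s⁻¹ * (s * v * s⁻¹) * s := by group
            _ = s⁻¹ * 1 * s := by rw [h]
            _ = 1 := by group
        exact hvQ (hv1 ▸ Q₁.one_mem)
      · have hvz : v = z := by
          calc v = s⁻¹ * (s * v * s⁻¹) * s := by group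
            _ = s⁻¹ * z * s := by rw [h]
            _ = z := by rw [mul_assoc, ← hzS s hsS, inv_mul_cancel_left]
        exact hvQ (hvz ▸ hzQ)
    have h4 : s * v * s⁻¹ * v ∈ Q₁ := hidx _ h2 v hvT h3 hvQ
    have h5 : s * v * s⁻¹ * v ∈ V := V.mul_mem h1 hvV
    rcases hVQ2 _ h5 h4 with h | h
    · left
      have := mul_eq_one_iff_eq_inv.mp h
      rw [this, hvinv]
    · right
      have := eq_mul_inv_of_mul_eq h
      rw [this, hvinv]; exact (hzT v hvT).symm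
  have hcl := Cfsg.Agent.H29.R1.r1_out_core T' Q₁ z v k s hQT hvT
    (fun t ht => by
      by_cases h : t ∈ Q₁
      · exact Or.inl h
      · exact Or.inr (hidx t ht v hvT h hvQ))
    hv2 hz2 hzQ hzT hQv hk3 hkz
    (fun q hq => ((Subgroup.mem_normalizer_iff.mp (hKQ hkK)) q).mp hq)
    (hinv v hvT hvQ k hkK)
    (fun t ht => ((Subgroup.mem_normalizer_iff.mp hsT) t).mp ht) hsv
  exact kb_mem_normalizer Q₁ s hcl

/-- KB-NORM from the P-side Prop. -/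
theorem kbNorm_of (hPS : PSideShape.{u}) : StKBNorm.{u} := by
  intro G _ _ S M K L T' K' L' hR hVQ
  have hVT : Vof L ≤ T' := (Cfsg.Agent.H48.Jx.stVne S M K L T' K' L' hR).2
  obtain ⟨hB, hNS, hB', hne⟩ := hR
  obtain ⟨hV4, hV2, hNV, ⟨z, hzV, hz1, hzZ, hzO', -, -⟩, hCz, hTI⟩ :=
    Cfsg.Agent.H48.Jy.vfacts S M K L T' K' L' hB hNS hB' hne
  obtain ⟨hQne, hQT, hOL, hKQ, hTQ⟩ := Cfsg.Agent.H73.JyVT.core_facts S L T' K' L' hB'
  obtain ⟨hidx, hinv, k, hkK, hk3, hkL⟩ := hPS S L T' K' L' hB'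
  have hT'S : T' ≤ (S : Subgroup G) := hB'.2.2.2.2.2.1
  have hSL : (S : Subgroup G) ≤ L := Subgroup.le_normalizer.trans hNS
  have hzC : ∀ s ∈ (S : Subgroup G), s * z = z * s := by
    have hle : omegaCenterOf (S : Subgroup G) ≤
        Subgroup.centralizer ((S : Subgroup G) : Set G) := by
      unfold omegaCenterOf omegaOne
      rw [Subgroup.closure_le]
      intro x hx
      exact hx.1.2
    intro s hs
    exact Subgroup.mem_centralizer_iff.mp (hle hzZ) s hs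
  have hkz : k * z * k⁻¹ ≠ z := by
    intro h
    apply hkL
    apply hCz z hzV hz1
    rw [Subgroup.mem_centralizer_iff]
    intro y hy
    rw [Set.mem_singleton_iff] at hy
    rw [hy]
    exact (mul_inv_eq_iff_eq_mul.mp h).symm
  exact kb_core_min (S : Subgroup G) (Vof L) T' (pCoreOf 2 (K' ⊔ T')) K' z k hV4 hV2
    (by rw [hNV]; exact hSL) hzV hz1 hzC hVT hVQ hT'S hQT (hOL hzO') hTQ hKQ hidx hinv
    hkK hk3 hkz

/-- KA from the P-side Prop (through the counting core). -/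
theorem ka_of_pside (hPS : PSideShape.{u}) : StKA.{u} := by
  intro G _ _ S M K L T' K' L' hR hVQ
  obtain ⟨hB, hNS, hB', hne⟩ := hR
  obtain ⟨hV4, hV2, hNV, ⟨z, hzV, hz1, hzZ, hzO', -, -⟩, hCz, hTI⟩ :=
    Cfsg.Agent.H48.Jy.vfacts S M K L T' K' L' hB hNS hB' hne
  obtain ⟨hQne, hQT, hOL, hKQ, hTQ⟩ := Cfsg.Agent.H73.JyVT.core_facts S L T' K' L' hB'
  obtain ⟨hidx, hinv, k, hkK, hk3, hkL⟩ := hPS S L T' K' L' hB'
  obtain ⟨A, a, hAT, -, hAe, hmax, -, haA, haQ⟩ := Cfsg.Agent.H8.Jy.exA S L T' K' L' hB'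
  have hT'S : T' ≤ (S : Subgroup G) := hB'.2.2.2.2.2.1
  have hSL : (S : Subgroup G) ≤ L := Subgroup.le_normalizer.trans hNS
  have hT'N : T' ≤ Subgroup.normalizer (omegaCenterOf (pCoreOf 2 L) : Set G) := by
    rw [hNV]; exact hT'S.trans hSL
  exact Cfsg.Agent.H82.Jv.caseA T' (pCoreOf 2 (K' ⊔ T')) (omegaCenterOf (pCoreOf 2 L)) A k a
    hQT hVQ hV4 hV2 (fun g hg => by rw [hNV]; exact hTI g hg) (hQT.trans hT'N) (hKQ hkK) hk3
    (by rw [hNV]; exact hkL) hAT hAe hmax haA (hT'N (hAT haA))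
    (hinv a (hAT haA) haQ k hkK)
    (fun t ht => by
      by_cases h : t ∈ pCoreOf 2 (K' ⊔ T')
      · exact Or.inl h
      · exact Or.inr (hidx t (hAT ht) a (hAT haA) h haQ))

/-- JY-KILL2 from the P-side Prop. -/
theorem kill2_of_pside (hPS : PSideShape.{u}) : StKill2.{u} :=
  Cfsg.Agent.H52.Jx.kill2_of (ka_of_pside hPS)
    (Cfsg.Agent.H52.Jx.kb_of Cfsg.Agent.H19.Jx.star.{u} Cfsg.Agent.H19.Jx.pf.{u}
      (kbNorm_of hPS))

end Cfsg.Agent.H26.Jx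

#print axioms Cfsg.Agent.H26.Jx.kill2_of_pside
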