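import Cfsg.Agent.H26.JxKill
import Cfsg.Agent.H97.JyPFacts
import Cfsg.Agent.H52.JzKill
import Cfsg.Agent.H64.JzFinal
import Cfsg.Agent.H51.Local
import Cfsg.Agent.H31.X.CharP2

/-!
S2953 (team project JY), the kill: the P-side Prop from a configuration, and the closed
`kill2 : StKill2`.
-/

set_option autoImplicit false
open Cfsg

namespace Cfsg.Agent.H26.Jx

open Cfsg.Agent.H64.Jz Cfsg.Agent.H64.Jy Cfsg.Agent.H52.Jx

universe u

/-- The P-side Prop holds for every configuration. -/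
theorem pSide : PSideShape.{u} := by
  intro G _ _ S M T K L hB
  have hTK : T ≤ Subgroup.normalizer (K : Set G) :=
    Cfsg.Agent.H52.JzKill.norm S M T K L hB (Cfsg.Agent.H64.Jz.stMain S M T K L hB)
  obtain ⟨hQne, hQT, hOL, hKQ, hTQ⟩ := Cfsg.Agent.H73.JyVT.core_facts S M T K L hB
  have hstr := hB.2.2.2.2.1.1
  have hT2 : IsPGroup 2 ↥T := hstr.1
  have hTM : T ≤ M := hstr.2.2.1
  have hK := hB.2.2.2.2.2.2.1
  have hKM : ¬ K ≤ M := hK.2.1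
  obtain ⟨hgen, -, hrel3, -, -, -⟩ := hK.1.1
  have hOK : pCoreOf 2 K ≤ K := Cfsg.Agent.H51.pCoreOf_le 2 K
  have hOnK : K ≤ Subgroup.normalizer (pCoreOf 2 K : Set G) :=
    Cfsg.Agent.H51.le_normalizer_pCoreOf 2 K
  have hOnT : T ≤ Subgroup.normalizer (pCoreOf 2 K : Set G) :=
    hTK.trans (Cfsg.Agent.H31.X.H54.normalizer_le_normalizer_pCoreOf K)
  have hOQ : pCoreOf 2 K ≤ pCoreOf 2 (K ⊔ T) :=
    Cfsg.Agent.H51.le_pCoreOf 2 (hOK.trans le_sup_left) (sup_le hOnK hOnT)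
      (Cfsg.Agent.H51.pCoreOf_isPGroup 2 K)
  have hOT : pCoreOf 2 K ≤ T := hOQ.trans hQT
  obtain ⟨D, k, hDT, hOD, hKD, hTD, hD2, hinv, -, -, hkK, hkO, hk3, hKO, hdich⟩ :=
    Cfsg.Agent.H97.Jy.pfacts K T (pCoreOf 2 K) hT2 hTK hOK hOT hrel3 hOnK hOnT hgen
  have hDQ : D ≤ pCoreOf 2 (K ⊔ T) :=
    Cfsg.Agent.H51.le_pCoreOf 2 (hDT.trans le_sup_right) (sup_le hKD hTD) (hT2.to_le hDT)
  refine ⟨?_, ?_, k, hkK, hk3, ?_⟩
  · intro a ha b hb haQ hbQ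
    exact hDQ (hD2 a ha b hb (fun h => haQ (hDQ h)) (fun h => hbQ (hDQ h)))
  · intro x hx hxQ g hg
    exact hOQ (hinv x hx (fun h => hxQ (hDQ h)) g hg)
  · intro hkM
    apply hKM
    intro g hg
    obtain ⟨o, ho, i, rfl⟩ := hKO g hg
    exact M.mul_mem (hTM (hOT ho)) (M.pow_mem hkM i)

/-- JY-KILL2, closed. -/
theorem kill2 : StKill2.{u} := kill2_of_pside pSide.{u}

example : Cfsg.Agent.H64.Jy.StKill2.{u} := Cfsg.Agent.H26.Jx.kill2.{u}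

end Cfsg.Agent.H26.Jx

#print axioms Cfsg.Agent.H26.Jx.pSide
#print axioms Cfsg.Agent.H26.Jx.kill2
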