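import Cfsg.Agent.H26.SE
import Cfsg.Prelude.Def_CaseTheorems

set_option autoImplicit false

namespace Cfsg.Agent.H26

open Subgroup

variable {G : Type*} [Group G]

/-- `X` contains an elementary abelian `p`-subgroup of order bigger than `p ^ n`. -/
def RankGT (p n : ℕ) (X : Subgroup G) : Prop :=
  ∃ A : Subgroup G, A ≤ X ∧ IsMulCommutative A ∧ (∀ a ∈ A, a ^ p = 1) ∧ p ^ n < Nat.card A

theorem not_pRankLE_iff (p n : ℕ) (X : Subgroup G) : ¬ Cfsg.PRankLE p n ↥X ↔ RankGT p n X := by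
  unfold Cfsg.PRankLE RankGT
  constructor
  · intro h
    simp only [not_forall, not_le] at h
    obtain ⟨A, hA1, hA2, hA3⟩ := h
    refine ⟨A.map X.subtype, ?_, inferInstance, ?_, ?_⟩
    · rintro _ ⟨a, -, rfl⟩
      exact a.2
    · rintro _ ⟨a, ha, rfl⟩
      have := hA2 a ha
      have h2 := congrArg Subtype.val this
      simpa using h2
    · rw [Subgroup.card_map_of_injective X.subtype_injective]
      exact hA3
  · rintro ⟨A, hAX, hA1, hA2, hA3⟩ h
    have h1 := h (A.subgroupOf X) inferInstance (by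
      intro a ha
      rw [Subgroup.mem_subgroupOf] at ha
      apply Subtype.ext
      simpa using hA2 _ ha)
    have h2 : Nat.card (A.subgroupOf X) = Nat.card A :=
      Nat.card_congr (Subgroup.subgroupOfEquivOfLe hAX).toEquiv
    omega

theorem RankGT.mono {p n : ℕ} {X Y : Subgroup G} (h : X ≤ Y) (hX : RankGT p n X) : RankGT p n Y := by
  obtain ⟨A, hAX, h1, h2, h3⟩ := hX
  exact ⟨A, hAX.trans h, h1, h2, h3⟩

theorem RankGT.conj {p n : ℕ} {X : Subgroup G} (g : G) (hX : RankGT p n X) :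
    RankGT p n (X.map (MulAut.conj g).toMonoidHom) := by
  obtain ⟨A, hAX, h1, h2, h3⟩ := hX
  refine ⟨A.map (MulAut.conj g).toMonoidHom, Subgroup.map_mono hAX, inferInstance, ?_, ?_⟩
  · rintro _ ⟨a, ha, rfl⟩
    rw [← map_pow, h2 a ha, map_one]
  · rw [Subgroup.card_map_of_injective (MulAut.conj g).injective]
    exact h3

theorem RankGT.isPGroup_witness {p n : ℕ} [Fact p.Prime] {X : Subgroup G} (hX : RankGT p n X) :
    ∃ A : Subgroup G, A ≤ X ∧ IsPGroup p A ∧ RankGT p n A := by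
  obtain ⟨A, hAX, h1, h2, h3⟩ := hX
  refine ⟨A, hAX, ?_, A, le_refl _, h1, h2, h3⟩
  intro a
  refine ⟨1, ?_⟩
  apply Subtype.ext
  simpa using h2 a a.2

end Cfsg.Agent.H26
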